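import Cfsg.Agent.Isa.I8

/-! The Isaacs correspondence step for groups of odd order. (helper12) -/

set_option autoImplicit false
set_option maxSynthPendingDepth 3
set_option linter.unusedVariables false
set_option linter.unusedSectionVars false

namespace Cfsg.Agent.PF.CH

open Cfsg.Agent.BG
open scoped _root_.Classical ComplexConjugate commutatorElement

universe u
variable {X : Type u} [Group X] [Finite X]
variable {A B C D E G H K L M N P Q R S T : Subgroup X} {χ ψ φ θ ω η ξ β τ : X → ℂ}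
  {a b g s x y : X} {p e m n : ℕ}

local notation "Sol" => Group.IsSolvable

theorem fixed_uniq (hL : L ≤ E) (hab : ⁅E, E⁆ ≤ L) (hS : S ≤ N[E]) (hSL : S ≤ N[L])
    (hc : (#E).Coprime #S) (hf : E ≤ L ⊔ ⁅E, S⁆) (hθ : θ ∈ IrrFix E S) (hη : η ∈ IrrFix E S)
    (h : dot L θ η ≠ 0) : θ = η := by
  obtain ⟨l, h1, rfl⟩ := eq_mul_lin_of_dot hL hab (IrrFix_irr hθ) (IrrFix_irr hη) h
  obtain ⟨F, hF⟩ : ∃ F : X → ℂ, F = fun x => ∏ s ∈ fs (S : Set X), lin l (s * x * s⁻¹) := ⟨_, rfl⟩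
  obtain ⟨ν, hν⟩ := exists_lin_of_mul (H := E) F (by simp [hF]) fun a ha b hb => by
    simp only [hF, ← Finset.prod_mul_distrib]
    exact Finset.prod_congr rfl fun s hs => by
      rw [← lin_map_mul l (conj_mem_of_norm (hS (mem_fs.1 hs)) ha)
        (conj_mem_of_norm (hS (mem_fs.1 hs)) hb)]
      congr 1; group
  have h2 : ∀ t ∈ S, ∀ x, F (t * x * t⁻¹) = F x := fun t ht x => by
    have := sum_mul_right (M := Additive ℂ) ht fun s => Additive.ofMul (lin l (s * x * s⁻¹))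
    simp only [hF]
    refine Eq.trans (Finset.prod_congr rfl fun s _ => ?_) this
    show _ = lin l _
    congr 1; group
  have h3 : E ≤ cfker (lin ν) := hf.trans (sup_le (fun x hx => by
      rw [mem_cfker_lin, hν x (hL hx), hF]
      exact Finset.prod_eq_one fun s hs =>
        mem_cfker_lin.1 (h1 (conj_mem_of_norm (hSL (mem_fs.1 hs)) hx)))
    (Subgroup.commutator_le.2 fun a ha t ht => by
      have h4 := conj_mem_of_norm (hS ht) (inv_mem ha)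
      rw [mem_cfker_lin, show ⁅a, t⁆ = a * (t * a⁻¹ * t⁻¹) by rw [commutatorElement_def]; group,
        lin_map_mul ν ha h4, hν _ h4, h2 t ht, ← hν _ (inv_mem ha), ← lin_map_mul ν ha (inv_mem ha),
        mul_inv_cancel, lin_apply_one]))
  ext x
  by_cases h0 : θ x = 0
  · simp [h0]
  have hx : x ∈ E := by_contra fun hx => h0 (CF_zero (Irr_CF (IrrFix_irr hθ)) hx)
  have h4 : ∀ s ∈ fs (S : Set X), lin l (s * x * s⁻¹) = lin l x := fun s hs => by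
    have h5 := congrFun (mem_inertia.1 (IrrFix_inv hη (mem_fs.1 hs))) x
    have h6 := congrFun (mem_inertia.1 (IrrFix_inv hθ (mem_fs.1 hs))) x
    rw [cj_apply] at h5 h6
    rw [Pi.mul_apply, Pi.mul_apply, h6] at h5
    exact mul_left_cancel₀ h0 h5
  have h5 : lin l x ^ #S = 1 := by
    have := mem_cfker_lin.1 (h3 hx)
    simp only [hν x hx, hF] at this
    rwa [Finset.prod_congr rfl h4, Finset.prod_const, card_fs_subgroup] at this
  have h6 : lin l x ^ #E = 1 := by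
    obtain ⟨k, hk⟩ := orderOf_dvd_cardG hx
    rw [hk, pow_mul, lin_pow_orderOf l hx, one_pow]
  have h7 := pow_gcd_eq_one.2 ⟨h6, h5⟩
  rw [hc, pow_one] at h7
  rw [Pi.mul_apply, h7, mul_one]

theorem central_amb (hS : S ≤ N[G]) (hc : (#G).Coprime #S) (ho : Odd #G) (hs : Sol G) (hE : E ⊴ G)
    (hSE : S ≤ N[E]) (hL : L ≤ E) (hab : ⁅E, E⁆ ≤ L) (hf : E ≤ L ⊔ ⁅E, S⁆)
    (hG : G ≤ E ⊔ G ⊓ C[S]) (hLS : L ≤ C[S]) (hsG : s ∈ N[G]) (hsE : s ∈ N[E]) (h2 : s ^ 2 = 1)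
    (hsS : s ∈ C[S]) (hC : G ⊓ C1[s] = G ⊓ C[S]) :
    PCor 2 (G ⊓ C[S]) (IrrFix G S) (IrrFix (G ⊓ C[S]) S) := by
  have hP : PiGrp {2} (Subgroup.zpowers s) := p_elt_zpowers.2
    (((pnat_prime (π := {2}) Nat.prime_two).2 rfl).of_dvd (orderOf_dvd_of_pow_eq_one h2))
  have h1 := pcor (N := ⊥) Nat.prime_two hP (by rw [norm_bot]; exact le_top) G (normal_bot G)
    (Subgroup.zpowers_le.2 hsG) (by rw [Subgroup.relIndex_bot_left]; exact ho.not_two_dvd_nat)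
  rw [centMod_bot, IrrFix_of_cent (cents_symm inf_le_right), C_zpowers, hC] at h1
  rw [IrrFix_of_cent (cents_symm inf_le_right)]
  suffices e : IrrFix G S = IrrFix G (Subgroup.zpowers s) by rwa [e]
  ext χ
  refine ⟨fun hχ => mem_IrrFix.2 ⟨IrrFix_irr hχ, Subgroup.zpowers_le.2 ?_⟩,
    fun hχ => mem_IrrFix.2 ⟨IrrFix_irr hχ, ?_⟩⟩
  · obtain ⟨θ, h3, h4⟩ := exists_fixed_below hE hS hSE
      ((hc.coprime_dvd_left (Subgroup.relIndex_dvd_card _ _)).coprime_dvd_right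
        (Subgroup.relIndex_dvd_card _ _)) (.inl (quotient_sol _ hs)) hχ
    refine mem_inertia_of_centMod hE hsG ((mem_centMod hE.norm).2 ⟨hsE, fun a ha => ?_⟩) (n := 2)
      (h2 ▸ one_mem _) ((Nat.coprime_two_right.2 ho).coprime_dvd_left
        (Subgroup.relIndex_dvd_card _ _)) (IrrFix_irr h3) ?_ (IrrFix_irr hχ) h4
    · obtain ⟨e, he, c, h5, rfl⟩ := (mem_sup_norml (inf_le_left.trans hE.norm)).1 (hG ha)
      rw [← hC] at h5
      have : s * (e * c) * s⁻¹ * (e * c)⁻¹ = s * e * s⁻¹ * e⁻¹ := by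
        have h6 : s⁻¹ * c⁻¹ = c⁻¹ * s⁻¹ := by rw [← mul_inv_rev, mem_cent1.1 h5.2, mul_inv_rev]
        rw [show s * (e * c) * s⁻¹ * (e * c)⁻¹ = s * e * c * (s⁻¹ * c⁻¹) * e⁻¹ by group, h6]
        group
      rw [this]
      exact mul_mem (conj_mem_of_norm hsE he) (inv_mem he)
    · refine (fixed_uniq hL hab hSE (cents_norm (cents_symm hLS)) (coprimeSg hE.le hc) hf h3
        (cj_mem_IrrFix hsE (cent_sub _ hsS) h3) ?_).symm
      rw [dot_congr (φ' := θ) (ψ' := θ) (fun _ _ => rfl) fun g hg => by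
        have h5 : g ∈ G ⊓ C1[s] := hC ▸ ⟨hE.le (hL hg), hLS hg⟩
        rw [cj_apply, ← mem_cent1.1 h5.2, mul_inv_cancel_right], dot_self, Complex.ofReal_ne_zero,
        ne_eq, nrm_eq_zero_iff']
      exact fun h5 => Irr_apply_one_ne_zero (IrrFix_irr h3) (h5 1 (one_mem _))
  · obtain ⟨ξ, h3, h4⟩ := h1.exi χ hχ
    exact h1.le_inertia hS (cents_norm (cents_symm inf_le_right))
      (cents_norm (cents_symm (Subgroup.zpowers_le.2 hsS))) le_rfl hχ h3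
      (IrrFix_inv (G := G ⊓ C[S]) (by rwa [IrrFix_of_cent (cents_symm inf_le_right)])) h4

theorem rel_TI (hK : K ≤ N[D]) (hAD : A ≤ N[D]) (hA : A ≤ N[K]) (hc : (#K).Coprime #A)
    (hab : ⁅K, K⁆ ≤ D) : (D ⊔ ⁅K, A⁆) ⊓ C[A] ≤ D := by
  have h1 : ⁅K, A⁆ ≤ N[D] := comm_subG hK hAD
  have h2 := coprime_abel_cent_TI (K := K /ᵍ D) (A := A /ᵍ D) (morphim_norms _ hA) (coprime_morph _ hc)
    (by rw [← der1_eq_bot, ← quotient_der hK]; exact quotientS1 hab)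
  rw [← quotient_sub1 (inf_le_left.trans (sup_le (normG D) h1)), ← le_bot_iff, ← h2, ← quotientR hK hAD,
    ← quotientYidl h1]
  exact morphim_subcent _ _ _

theorem exists_inv_aut (hL : L ≤ Subgroup.center X) [hE : E.Normal] (hLE : L ≤ E) (hab : ⁅E, E⁆ ≤ L)
    (hB : E ⊔ B = ⊤) (hEB : E ⊓ B ≤ L) (hSB : S ≤ B) (hBS : B ≤ N[S]) (hc : (#E).Coprime #S)
    (hf : E ≤ L ⊔ ⁅E, S⁆) :
    ∃ t : MulAut X, t ^ 2 = 1 ∧ (∀ b ∈ B, t b = b) ∧ ∀ e ∈ E, e * t e ∈ L := by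
  have hz : ∀ l ∈ L, ∀ x, x * l = l * x := fun l hl => Subgroup.mem_center_iff.1 (hL hl)
  have hn : ∀ l ∈ L, ∀ x, x * l * x⁻¹ ∈ L := fun l hl x => by rwa [hz l hl, mul_inv_cancel_right]
  have hcm : ∀ a ∈ E, ∀ b ∈ E, a * b * a⁻¹ * b⁻¹ ∈ L := fun a ha b hb =>
    hab (Subgroup.commutator_mem_commutator ha hb)
  have h2 : ∀ a b, a ∈ E → a * b ∈ L → b ∈ E := fun a b ha h => (mul_mem_cancel_left ha).1 (hLE h)
  have hsw : ∀ a b, a * b ∈ L → b * a ∈ L := fun a b h => by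
    have := hn _ h a⁻¹; rwa [show a⁻¹ * (a * b) * a⁻¹⁻¹ = b * a by group] at this
  obtain ⟨P, hP⟩ : ∃ P : Subgroup (X × X), ∀ z, z ∈ P ↔ z.1 ∈ E ∧ z.1 * z.2 ∈ L :=
    ⟨{ carrier := {z | z.1 ∈ E ∧ z.1 * z.2 ∈ L}
       one_mem' := by simp
       mul_mem' := fun {a b} ha hb => ⟨mul_mem ha.1 hb.1, by
          have := mul_mem (mul_mem (hn _ (hcm _ hb.1 _ (h2 _ _ ha.1 ha.2)) a.1) ha.2) hb.2
          convert this using 1; simp only [Prod.fst_mul, Prod.snd_mul]; group⟩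
       inv_mem' := fun {a} ha => ⟨inv_mem ha.1, by
          have := inv_mem (hsw _ _ ha.2); rwa [mul_inv_rev] at this⟩ }, fun _ => Iff.rfl⟩
  obtain ⟨d, hd⟩ : ∃ d : X →* X × X, ∀ x, d x = (x, x) := ⟨(MonoidHom.id X).prod (.id X), fun _ => rfl⟩
  have hD : ∀ W, W ≤ N[L.map d] := fun W => cents_norm (cents_symm (by
    rintro _ ⟨l, hl, rfl⟩
    exact mem_cent.2 fun a _ => by rw [hd]; exact Prod.ext (hz l hl _) (hz l hl _)))
  have hBP : ∀ W : Subgroup X, W.map d ≤ N[P] := fun W => le_norm_iff.2 (by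
    rintro _ ⟨b, -, rfl⟩ z h
    rw [hP] at h ⊢
    rw [hd]
    refine ⟨hE.conj_mem _ h.1 _, ?_⟩
    convert hn _ h.2 b using 1; simp only [Prod.fst_mul, Prod.snd_mul, Prod.fst_inv, Prod.snd_inv]; group)
  have hTI := rel_TI (K := P) (D := L.map d) (A := S.map d) (hD _) (hD _) (hBP _)
    (((hc.mul_left hc).coprime_dvd_left (by
      rw [← Nat.card_prod, ← Nat.card_congr (E.prodEquiv E).toEquiv]
      exact cardSg fun z h => ⟨((hP z).1 h).1, h2 _ _ ((hP z).1 h).1 ((hP z).1 h).2⟩)).coprime_dvd_right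
        (Subgroup.card_map_dvd _ _))
    (Subgroup.commutator_le.2 fun a ha b hb => by
      rw [hP] at ha hb
      refine ⟨_, hcm _ ha.1 _ hb.1, ?_⟩
      rw [hd]
      refine Prod.ext rfl ?_
      show _ = a.2 * b.2 * a.2⁻¹ * b.2⁻¹
      obtain ⟨l, hl, e1⟩ : ∃ l ∈ L, a.2 = a.1⁻¹ * l := ⟨_, ha.2, by group⟩
      obtain ⟨k, hk, e2⟩ : ∃ l ∈ L, b.2 = b.1⁻¹ * l := ⟨_, hb.2, by group⟩
      have h3 := hz _ (hcm _ ha.1 _ hb.1) (a.1⁻¹ * b.1⁻¹)
      rw [e1, e2, show a.1⁻¹ * l * (b.1⁻¹ * k) * (a.1⁻¹ * l)⁻¹ * (b.1⁻¹ * k)⁻¹ =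
        a.1⁻¹ * (l * (b.1⁻¹ * k) * l⁻¹) * a.1 * k⁻¹ * b.1 by group, ← hz l hl, mul_inv_cancel_right,
        show a.1⁻¹ * (b.1⁻¹ * k) * a.1 * k⁻¹ * b.1 = a.1⁻¹ * b.1⁻¹ * (k * a.1 * k⁻¹) * b.1 by group,
        ← hz k hk, mul_inv_cancel_right]
      calc _ = a.1⁻¹ * b.1⁻¹ * (a.1 * b.1 * a.1⁻¹ * b.1⁻¹) * (a.1⁻¹ * b.1⁻¹)⁻¹ := by
            rw [h3, mul_inv_cancel_right]
        _ = _ := by group)
  obtain ⟨U, hU⟩ : ∃ U, U = L.map d ⊔ ⁅P, S.map d⁆ := ⟨_, rfl⟩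
  rw [← hU] at hTI
  have hUP : U ≤ P := hU ▸ sup_le (by
    rintro _ ⟨l, hl, rfl⟩; rw [hP, hd]; exact ⟨hLE hl, mul_mem hl hl⟩) (commg_subl (hBP _))
  have hBU : B.map d ≤ N[U] := hU ▸ normsY (hD _) (normsR (hBP _) (map_norms d hBS))
  have hLU : ∀ l ∈ L, d l ∈ U := fun l hl => hU ▸ Subgroup.mem_sup_left ⟨l, hl, rfl⟩
  have c3 : ∀ z ∈ U ⊔ B.map d, z.1 = 1 → z.2 = 1 := fun z h h1 => by
    obtain ⟨u, hu, _, ⟨b, hb, rfl⟩, rfl⟩ := (mem_sup_norml hBU).1 h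
    rw [hd] at h1 ⊢
    have h3 : u.1 = b⁻¹ := eq_inv_of_mul_eq_one_left h1
    have h4 : u.1 ∈ L := hEB ⟨((hP u).1 (hUP hu)).1, by rw [h3]; exact B.inv_mem hb⟩
    have h5 := mul_mem (inv_mem (hLU _ h4)) hu
    have h6 := ((hP _).1 (hUP h5)).2
    obtain ⟨l, -, h7⟩ := hTI ⟨h5, mem_cent.2 fun a _ => by
      rw [hd] at h6 ⊢
      refine Prod.ext (by simp) (hz _ (by simpa using h6) _)⟩
    rw [hd, hd] at h7
    have h8 := congrArg Prod.fst h7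
    have h9 := congrArg Prod.snd h7
    simp only [Prod.fst_mul, Prod.snd_mul, Prod.fst_inv, Prod.snd_inv, inv_mul_cancel] at h8 h9 ⊢
    rw [h8, eq_comm, inv_mul_eq_one] at h9
    rw [← h9, h3, inv_mul_cancel]
  have hdf : ∀ W : Subgroup X, (W.map d).map (MonoidHom.fst X X) = W := fun W => by
    rw [Subgroup.map_map, show (MonoidHom.fst X X).comp d = .id X from MonoidHom.ext fun x => by
      simp [hd], Subgroup.map_id]
  have c4 : ∀ x, ∃ y, (x, y) ∈ U ⊔ B.map d := fun x => by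
    have : x ∈ (U ⊔ B.map d).map (MonoidHom.fst X X) := by
      rw [Subgroup.map_sup, hU, Subgroup.map_sup, Subgroup.map_commutator, hdf, hdf, hdf]
      refine (sup_le_sup_right (hf.trans (sup_le_sup_left (commSg _ fun e he => ?_) _)) _)
        (hB ▸ Subgroup.mem_top x)
      exact ⟨(e, e⁻¹), (hP _).2 ⟨he, by simp⟩, rfl⟩
    obtain ⟨z, h, rfl⟩ := this
    exact ⟨z.2, h⟩
  have hds : ∀ W : Subgroup X, (W.map d).map (MulEquiv.prodComm : X × X ≃* X × X).toMonoidHom =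
      W.map d := fun W => by
    rw [Subgroup.map_map]; congr 1; ext x <;> simp [hd]
  have c5 : ∀ x y, (x, y) ∈ U ⊔ B.map d → (y, x) ∈ U ⊔ B.map d := fun x y h => by
    have : (U ⊔ B.map d).map (MulEquiv.prodComm : X × X ≃* X × X).toMonoidHom ≤ U ⊔ B.map d := by
      rw [Subgroup.map_sup, hU, Subgroup.map_sup, Subgroup.map_commutator, hds, hds, hds]
      refine sup_le_sup_right (sup_le_sup_left (commSg _ ?_) _) _
      rintro _ ⟨z, h, rfl⟩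
      have h' := (hP z).1 h
      exact (hP _).2 ⟨h2 _ _ h'.1 h'.2, hsw _ _ h'.2⟩
    exact this ⟨_, h, rfl⟩
  choose t ht using c4
  have uq : ∀ x y, (x, y) ∈ U ⊔ B.map d → t x = y := fun x y h => by
    have := c3 _ (mul_mem (inv_mem (ht x)) h) (by simp)
    exact inv_mul_eq_one.1 this
  have tt : ∀ x, t (t x) = x := fun x => uq _ _ (c5 _ _ (ht x))
  refine ⟨⟨⟨t, t, tt, tt⟩, fun x y => uq _ _ (mul_mem (ht x) (ht y))⟩, MulEquiv.ext tt,
    fun b hb => uq _ _ (Subgroup.mem_sup_right ⟨b, hb, hd b⟩), fun e he => ?_⟩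
  obtain ⟨u, hu, _, ⟨b, hb, rfl⟩, h⟩ := (mem_sup_norml hBU).1 (ht e)
  have h3 := (hP u).1 (hUP hu)
  rw [hd] at h
  have h4 : e = u.1 * b := congrArg Prod.fst h
  have h5 : t e = u.2 * b := congrArg Prod.snd h
  have h6 : b ∈ L := hEB ⟨(mul_mem_cancel_left h3.1).1 (h4 ▸ he), hb⟩
  show e * t e ∈ L
  rw [h5, h4, hz b h6 u.1]
  convert mul_mem (mul_mem h6 h3.2) h6 using 1; group

theorem PCor.of_inj {Y : Type*} [Group Y] [Finite Y] (f : X →* Y) (hf : Function.Injective f)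
    (hS : S ≤ N[G]) (hH : S ≤ N[H]) (hHG : H ≤ G)
    (h : PCor p (H.map f) (IrrFix (G.map f) (S.map f)) (IrrFix (H.map f) (S.map f))) :
    PCor p H (IrrFix G S) (IrrFix H S) := by
  have := (PCor.iff_of_bijOn (bijOn_pb f hS) (bijOn_pb f hH) fun χ _ ψ _ => mu_pb hHG le_rfl).2 h
  rwa [Finset.filter_true_of_mem, Finset.filter_true_of_mem] at this <;>
    exact fun _ _ => by rw [f.ker_eq_bot_iff.2 hf, inf_bot_eq]; exact bot_le

theorem central_case (hT : G ⊔ S = ⊤) (hS : S ≤ N[G]) (hc : (#G).Coprime #S) (ho : Odd #G)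
    (hs : Sol G) (hL : L ≤ G) (hZ : L ≤ Subgroup.center X) (hab : ⁅⁅G, S⁆, ⁅G, S⁆⁆ ≤ L) :
    PCor 2 (G ⊓ C[S]) (IrrFix G S) (IrrFix (G ⊓ C[S]) S) := by
  have hZ' : ∀ W, L ≤ C[W] := fun W => hZ.trans (cent_top (G := X) ▸ centS le_top)
  have hn : ∀ W, W ≤ N[L] := fun W => cents_norm (cents_symm (hZ' W))
  obtain ⟨E, hE⟩ : ∃ E, E = L ⊔ ⁅G, S⁆ := ⟨_, rfl⟩
  have hLE : L ≤ E := hE ▸ le_sup_left
  have hEG : E ≤ G := hE ▸ sup_le hL (commg_subl hS)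
  have : E.Normal := NormalIn.normal ⟨le_top, hE ▸ normsY (hn _) (hT ▸ (commg_normal G S).norm)⟩
  have h1 : ⁅E, E⁆ ≤ L := by
    rw [hE, der_sup_cent (cents_symm (hZ' _))]; exact sup_le (der_sub _) hab
  have h2 : E ≤ L ⊔ ⁅E, S⁆ := hE.le.trans (sup_le_sup_left
    ((coprime_commGid hS hc).ge.trans (commSg _ (hE ▸ le_sup_right))) _)
  have h3 : G ≤ E ⊔ G ⊓ C[S] := (coprime_cent_prod hS hc hs).ge.trans
    (sup_le_sup_right (hE ▸ le_sup_right) _)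
  have h4 := rel_TI (hn E) (hn S) (norm_of_normal E S) (coprimeSg hEG hc) h1
  obtain ⟨t, t2, tB, tE⟩ := exists_inv_aut (B := G ⊓ C[S] ⊔ S) hZ hLE h1
    (by rw [eq_top_iff, ← hT, ← sup_assoc]; exact sup_le_sup_right h3 _)
    (le_trans (le_inf (inf_le_left.trans h2) ((inf_le_inf_right _ hEG).trans (by
      rw [group_modl (.inl (inf_le_right.trans (cent_sub _))) inf_le_left, coprime_TI hc, sup_bot_eq]
      exact inf_le_right))) h4) le_sup_right (sup_le (inf_le_right.trans (cent_sub _)) (normG _))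
    (coprimeSg hEG hc) h2
  have tE' : ∀ e ∈ E, t e ∈ E := fun e he => (mul_mem_cancel_left he).1 (hLE (tE e he))
  have dec : ∀ g ∈ G, ∃ e ∈ E, ∃ c ∈ G ⊓ C[S], g = e * c := fun g hg =>
    (mem_sup_norml (norm_of_normal _ _)).1 (h3 hg)
  have : Finite (X ⋊[MonoidHom.id _] MulAut X) := Finite.of_equiv _ SemidirectProduct.equivProd.symm
  obtain ⟨f, hf⟩ : ∃ f : X →* X ⋊[MonoidHom.id _] MulAut X, f = SemidirectProduct.inl := ⟨_, rfl⟩
  have fi : Function.Injective f := hf ▸ SemidirectProduct.inl_injective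
  obtain ⟨s, s2, st⟩ : ∃ s : X ⋊[MonoidHom.id _] MulAut X, s ^ 2 = 1 ∧ ∀ x, s * f x * s⁻¹ = f (t x) :=
    ⟨SemidirectProduct.inr t, by rw [← map_pow, t2, map_one], fun x => by
      rw [hf, ← map_inv, ← SemidirectProduct.inl_aut]; rfl⟩
  have sN : ∀ W : Subgroup X, (∀ x ∈ W, t x ∈ W) → s ∈ N[W.map f] := fun W h =>
    mem_norm_of_cj_le (by
      rintro _ ⟨_, ⟨x, hx, rfl⟩, rfl⟩
      exact ⟨t x, h x hx, (st x).symm⟩)
  have sC : ∀ x, f x ∈ C1[s] ↔ t x = x := fun x => by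
    rw [mem_cent1, ← fi.eq_iff, ← st, mul_inv_eq_iff_eq_mul, eq_comm]
  have cf : ∀ W : Subgroup X, #(W.map f) = #W := fun W => Subgroup.card_map_of_injective fi
  have e := map_inf_cent f hS hc hs
  refine PCor.of_inj f fi hS (cents_norm (cents_symm inf_le_right)) inf_le_left ?_
  rw [e]
  refine central_amb (E := E.map f) (L := L.map f) (map_norms f hS) (by rwa [cf, cf]) (by rwa [cf])
    (solvable_map f hs) (map_normal f ⟨hEG, norm_of_normal _ _⟩) (map_norms f (norm_of_normal _ _))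
    (Subgroup.map_mono hLE) (by rw [← Subgroup.map_commutator]; exact Subgroup.map_mono h1)
    (by rw [← Subgroup.map_commutator, ← Subgroup.map_sup]; exact Subgroup.map_mono h2)
    (by rw [← e, ← Subgroup.map_sup]; exact Subgroup.map_mono h3) (map_cents f (hZ' _))
    (sN G fun g hg => ?_) (sN E tE') s2 (mem_cent.2 ?_) ?_
  · obtain ⟨e, he, c, hc, rfl⟩ := dec g hg
    rw [map_mul, tB c (Subgroup.mem_sup_left hc)]
    exact mul_mem (hEG (tE' e he)) hc.1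
  · rintro _ ⟨x, hx, rfl⟩
    exact mem_cent1.1 ((sC x).2 (tB x (Subgroup.mem_sup_right hx)))
  · rw [← e]
    refine le_antisymm ?_ ?_
    · rintro _ ⟨⟨g, hg, rfl⟩, h5⟩
      obtain ⟨e, he, c, hc, rfl⟩ := dec g hg
      have h6 := (sC _).1 h5
      rw [map_mul, tB c (Subgroup.mem_sup_left hc), mul_left_inj] at h6
      have h7 : e ∈ L := by
        obtain ⟨k, hk⟩ := ho
        have h8 : e ^ #G = 1 := orderOf_dvd_iff_pow_eq_one.1 (orderOf_dvd_cardG (hEG he))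
        rw [hk, pow_succ', pow_mul, mul_eq_one_iff_eq_inv] at h8
        rw [h8]
        exact inv_mem (pow_mem (by rw [sq]; simpa only [h6] using tE e he) _)
      exact ⟨_, mul_mem ⟨hL h7, hZ' _ h7⟩ hc, rfl⟩
    · rintro _ ⟨c, hc, rfl⟩
      exact ⟨⟨c, hc.1, rfl⟩, (sC c).2 (tB c (Subgroup.mem_sup_left hc))⟩

theorem exists_cover (hL : L ⊴ M) (hφ : φ ∈ IrrFix L M) :
    ∃ (Γ : Type u) (_ : Group Γ) (_ : Finite Γ) (f : Γ →* X) (N : Subgroup Γ) (τ : Γ → ℂ),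
      f.range = M ∧ N.Normal ∧ N.map f = L ∧ f.ker ≤ Subgroup.center Γ ∧
      (∀ n, (#L).Coprime n → (#f.ker).Coprime n) ∧ IsChar ⊤ τ ∧ Res N τ = pb f N φ := by
  have := hL.subgroupOf
  have h1 := Irr_subgroupOf hL.le (IrrFix_irr hφ)
  obtain ⟨Γ, _, _, π, ι, τ, lam, h, h2, -⟩ := CharDeep.exists_isCover' (L.subgroupOf M) h1
    (fun g => funext fun n => congrFun (mem_inertia.1 (IrrFix_inv hφ g.2)) _)
    (Irr_apply_one (IrrFix_irr hφ)) 1 (m := #L) (cardG_ne_zero L) fun n => by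
      rw [CharDeep.detChar_eq_detHom h1.isCharacter, ← card_subgroupOf hL.le]
      simp only [← Units.val_pow_eq_pow_val, ← map_pow, pow_card_eq_one', map_one, MonoidHom.one_apply, one_pow]
  have hk : (M.subtype.comp π).ker = π.ker := by
    rw [← MonoidHom.comap_ker, M.ker_subtype, MonoidHom.comap_bot]
  refine ⟨Γ, inferInstance, inferInstance, M.subtype.comp π, ι.range, τ, ?_, h.normal_range, ?_,
    hk ▸ h.ker_le, fun n hn => ?_, isChar_top.2 h.τ_char, Res_congr ?_⟩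
  · rw [MonoidHom.range_comp, MonoidHom.range_eq_top.2 h.surj, map_subtype_top]
  · ext x
    refine ⟨?_, fun hx => ⟨_, ⟨⟨⟨x, hL.le hx⟩, hx⟩, rfl⟩, congrArg Subtype.val (h.π_ι _)⟩⟩
    rintro ⟨_, ⟨n, rfl⟩, rfl⟩
    rw [MonoidHom.comp_apply, h.π_ι]; exact n.2
  · rw [hk]
    refine Nat.coprime_of_dvd fun q hq h3 h4 => ?_
    obtain ⟨z, hz, h5⟩ := Cauchy hq h3
    have h6 : (⟨z, hz⟩ : π.ker) ^ (deg φ * #L) = 1 := h.lam_inj (by rw [map_pow, h2, map_one])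
    have h7 : q ∣ deg φ * #L := h5 ▸ orderOf_dvd_of_pow_eq_one (congrArg Subtype.val h6)
    have h8 : q ∣ #L := ((Nat.Prime.dvd_mul hq).1 h7).elim (·.trans (dvd_irr1_cardG (IrrFix_irr hφ))) id
    exact hq.one_lt.ne' (Nat.eq_one_of_dvd_coprimes hn h8 h4)
  · rintro _ ⟨n, rfl⟩
    rw [h.τ_ι, MonoidHom.comp_apply, h.π_ι]; rfl

theorem step_inv (hS : S ≤ N[G]) (hc : (#G).Coprime #S) (ho : Odd #G) (hs : Sol G) (hL : L ⊴ G)
    (hSL : S ≤ N[L]) (hab : ⁅⁅G, S⁆, ⁅G, S⁆⁆ ≤ L) (hφ : φ ∈ IrrFix L (G ⊔ S)) :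
    PCor 2 (L ⊔ G ⊓ C[S]) ((IrrFix G S).filter (dot L · φ ≠ 0))
      ((IrrFix (L ⊔ G ⊓ C[S]) S).filter (dot L · φ ≠ 0)) := by
  obtain ⟨Γ, _, _, f, N, τ, hr, hN, hNL, hZ, hk, hτ, hres⟩ :=
    exists_cover ⟨hL.le.trans le_sup_left, sup_le hL.norm hSL⟩ hφ
  have hcard : ∀ W ≤ G ⊔ S, #(W.comap f) = #f.ker * #W := fun W hW => by
    rw [← card_mul_relIndex (Subgroup.ker_le_comap f W), Subgroup.relIndex_ker,
      Subgroup.map_comap_eq_self (hr ▸ hW)]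
  have hmc : ∀ W ≤ G ⊔ S, (W.comap f).map f = W := fun W hW =>
    Subgroup.map_comap_eq_self (hr ▸ hW)
  obtain ⟨G', hG'⟩ : ∃ G', G' = G.comap f := ⟨_, rfl⟩
  have kS := hk _ (coprimeSg hL.le hc)
  obtain ⟨S', hS'⟩ := SchurZassenhaus_split (K := f.ker) (M := S.comap f)
    ⟨Subgroup.ker_le_comap _ _, norm_of_normal _ _⟩ (by
      have := card_mul_relIndex (Subgroup.ker_le_comap f S)
      rw [hcard S le_sup_right] at this
      rwa [Nat.eq_of_mul_eq_mul_left (cardG_pos _) this])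
  have eS : S'.map f = S := by
    rw [← hmc S le_sup_right, ← hS'.sup, Subgroup.map_sup, Subgroup.map_ker_self, bot_sup_eq]
  have eG : G'.map f = G := hG' ▸ hmc G le_sup_left
  have cS : #S' = #S := by
    have := hS'.card
    rw [hcard S le_sup_right] at this
    exact Nat.eq_of_mul_eq_mul_left (cardG_pos _) this
  have kG : f.ker ≤ G' := hG' ▸ Subgroup.ker_le_comap _ _
  have hS1 : S' ≤ N[G'] := le_norm_iff.2 fun s h1 g h2 => by
    rw [hG', Subgroup.mem_comap] at h2 ⊢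
    rw [map_mul, map_mul, map_inv]
    exact conj_mem_of_norm (hS (eS ▸ Subgroup.mem_map_of_mem f h1)) h2
  have hc1 : (#G').Coprime #S' := by rw [hG', hcard G le_sup_left, cS]; exact kS.mul_left hc
  have ho1 : Odd #G' := by
    rw [hG', hcard G le_sup_left]
    exact (Nat.coprime_two_right.1 (hk 2 (Nat.coprime_two_right.2 (oddSg hL.le ho)))).mul ho
  have hs1 : Sol G' := by
    have : Sol f.ker := abelian_sol (abelian_of_cent (hZ.trans (cent_top (G := Γ) ▸ centS le_top)))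
    have : Sol (G'.map f) := eG ▸ hs
    exact Group.isSolvable_of_ker_le_range (Subgroup.inclusion kG) (f.subgroupMap G') fun x hx =>
      ⟨⟨x, congrArg Subtype.val hx⟩, rfl⟩
  have NG : N ≤ G' := hG' ▸ Subgroup.map_le_iff_le_comap.1 (hNL ▸ hL.le)
  have hT : G' ⊔ S' = ⊤ := by
    rw [← Subgroup.comap_map_eq_self (f := f) (H := G' ⊔ S') (kG.trans le_sup_left), Subgroup.map_sup, eG, eS,
      ← hr, MonoidHom.comap_range_self]
  obtain ⟨H', hH'⟩ : ∃ H', H' = N ⊔ G' ⊓ C[S'] := ⟨_, rfl⟩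
  have HG : H' ≤ G' := hH' ▸ sup_le NG inf_le_left
  have NH : N ≤ H' := hH' ▸ le_sup_left
  have kH : f.ker ≤ H' := hH' ▸ (le_inf kG (hZ.trans (cent_top (G := Γ) ▸ centS le_top))).trans le_sup_right
  have hS2 : S' ≤ N[H'] := hH' ▸ normsY (norm_of_normal _ _) (cents_norm (cents_symm inf_le_right))
  have eH : H'.map f = L ⊔ G ⊓ C[S] := by
    rw [hH', Subgroup.map_sup, hNL, map_inf_cent f hS1 hc1 hs1, eG, eS]
  obtain ⟨σ, hσ, kσ⟩ : ∃ σ : Γ →* Γ ⧸ N, Function.Surjective σ ∧ σ.ker = N :=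
    ⟨_, QuotientGroup.mk'_surjective N, QuotientGroup.ker_mk' N⟩
  have c1 := central_case (G := G'.map σ) (S := S'.map σ) (L := f.ker.map σ)
    (by rw [← Subgroup.map_sup, hT, Subgroup.map_top_of_surjective _ hσ]) (map_norms σ hS1)
    ((hc1.coprime_dvd_left (Subgroup.card_map_dvd _ _)).coprime_dvd_right (Subgroup.card_map_dvd _ _))
    (ho1.of_dvd_nat (Subgroup.card_map_dvd _ _)) (solvable_map σ hs1) (Subgroup.map_mono kG)
    (by
      have := map_cents σ (S' := f.ker) (A' := ⊤) (cent_top (G := Γ) ▸ hZ)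
      rwa [Subgroup.map_top_of_surjective _ hσ, cent_top] at this)
    (by
      simp only [← Subgroup.map_commutator]
      rw [Subgroup.map_le_map_iff, kσ, sup_comm, ← Subgroup.comap_map_eq, ← Subgroup.map_le_iff_le_comap, hNL]
      simp only [Subgroup.map_commutator, eG, eS]
      exact hab)
  rw [← map_inf_cent σ hS1 hc1 hs1, show (G' ⊓ C[S']).map σ = H'.map σ by
    rw [hH', Subgroup.map_sup, (Subgroup.map_eq_bot_iff N).2 kσ.ge, bot_sup_eq]] at c1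
  have c2 := (PCor.iff_of_bijOn (bijOn_pb σ hS1) (bijOn_pb σ hS2) fun χ _ ψ _ => mu_pb HG le_rfl).2 c1
  rw [kσ, inf_eq_right.2 NG, inf_eq_right.2 NH] at c2
  have hi : Res N τ ∈ Irr N := hres ▸ pb_irr (hNL ▸ IrrFix_irr hφ)
  have hτS : S' ≤ inertia τ := le_top.trans (le_inertia_of_CF hτ.mem_CF)
  have c3 := (PCor.iff_of_bijOn
    (bijOn_mul ⟨NG, norm_of_normal _ _⟩ (hτ.res le_top) hi hS1 (norm_of_normal _ _) hτS)
    (bijOn_mul ⟨NH, norm_of_normal _ _⟩ (hτ.res le_top) hi hS2 (norm_of_normal _ _) hτS)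
    fun χ hχ ψ hψ => by
      rw [mu, mu, dot_mul_ext ⟨NH, norm_of_normal _ _⟩ (hτ.res le_top) hi (Finset.mem_filter.1 hχ).2
        (Finset.mem_filter.1 hψ).2]).2 c2
  have c4 := c3.filter (G' ⊓ f.ker ≤ cfker ·) (H' ⊓ f.ker ≤ cfker ·) fun χ hχ ψ hψ h => by
    have h1 := IrrFix_irr (Finset.mem_filter.1 hχ).1
    have h2 := IrrFix_irr (Finset.mem_filter.1 hψ).1
    obtain ⟨θ, h3, h4⟩ := exists_constt_Res kH h2
    rw [inf_eq_right.2 kG, inf_eq_right.2 kH, cfker_Res_constt_iff ⟨kH, norm_of_normal _ _⟩ le_rfl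
      (norm_of_normal _ _) h2 h3 h4, cfker_Res_constt_iff ⟨kG, norm_of_normal _ _⟩ le_rfl
      (norm_of_normal _ _) h1 h3 (dot_ne_zero_trans kH HG (Irr_isChar h1) h2 (Irr_isChar h3)
        (mu_ne_of_not_dvd h) h4)]
  rw [Finset.filter_comm _ _ (IrrFix G' S'), Finset.filter_comm _ _ (IrrFix H' S')] at c4
  have hd : ∀ W, N ≤ W → ∀ χ, dot N (pb f W χ) τ ≠ 0 ↔ dot L χ φ ≠ 0 := fun W hW χ => by
    rw [← dot_Res_self_right, hres, dot_pb hW le_rfl, hNL]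
  have := (PCor.iff_of_bijOn
    (bijOn_filter (bijOn_pb f hS1) (dot L · φ ≠ 0) _ fun χ _ => hd _ NG χ)
    (bijOn_filter (bijOn_pb f hS2) (dot L · φ ≠ 0) _ fun χ _ => hd _ NH χ)
    fun χ _ ψ _ => mu_pb HG le_rfl).1 c4
  rwa [eH, eG, eS] at this

theorem isaacs_step (hS : S ≤ N[G]) (hc : (#G).Coprime #S) (ho : Odd #G) (hs : Sol G) (hL : L ⊴ G)
    (hSL : S ≤ N[L]) (hab : ⁅⁅G, S⁆, ⁅G, S⁆⁆ ≤ L) :
    PCor 2 (L ⊔ G ⊓ C[S]) (IrrFix G S) (IrrFix (L ⊔ G ⊓ C[S]) S) := by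
  obtain ⟨H, hH⟩ : ∃ H, H = L ⊔ G ⊓ C[S] := ⟨_, rfl⟩
  have HG : H ≤ G := hH ▸ sup_le hL.le inf_le_left
  have LH : L ⊴ H := hL.subl (hH ▸ le_sup_left) HG
  have hS2 : S ≤ N[H] := hH ▸ normsY hSL (cents_norm (cents_symm inf_le_right))
  have below : ∀ W, L ⊴ W → W ≤ G → S ≤ N[W] → ∀ χ ∈ IrrFix W S, ∃ φ, φ ∈ IrrFix L S ∧ dot L χ φ ≠ 0 :=
    fun W h1 h2 h3 χ hχ => exists_fixed_below h1 h3 hSL
      (((coprimeSg h2 hc).coprime_dvd_left (Subgroup.relIndex_dvd_card _ _)).coprime_dvd_right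
        (Subgroup.relIndex_dvd_card _ _)) (.inl (quotient_sol _ (solvableS h2 hs))) hχ
  rw [← hH]
  refine PCor.of_local (· ∈ IrrFix L S) (fun φ χ => dot L χ φ ≠ 0) (fun φ hφ => ?_)
    (below G hL le_rfl hS) (below H LH HG hS2) fun φ hφ χ hχ ψ hψ h => ⟨fun h1 => ?_, fun h1 =>
      dot_ne_zero_trans LH.le HG (Irr_isChar (IrrFix_irr hχ)) (IrrFix_irr hψ)
        (Irr_isChar (IrrFix_irr hφ)) (mu_ne_of_not_dvd h) h1⟩
  · have h1 := le_inf_inertia hL.le (Irr_CF (IrrFix_irr hφ))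
    have h2 := step_inv (G := G ⊓ inertia φ) (normsI hS fun s hs => norms_inertia (IrrFix_inv hφ hs))
      (coprimeSg inf_le_left hc) (oddSg inf_le_left ho) (solvableS inf_le_left hs)
      (hL.subl h1 inf_le_left) hSL ((dergS (commSg _ inf_le_left)).trans hab)
      (mem_IrrFix.2 ⟨IrrFix_irr hφ, sup_le inf_le_right (IrrFix_inv hφ)⟩)
    rw [show L ⊔ G ⊓ inertia φ ⊓ C[S] = H ⊓ inertia φ by
      rw [hH, inf_comm _ (inertia φ), inf_comm _ (inertia φ), group_modl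
        (.inr (inf_le_left.trans hL.norm)) (h1.trans inf_le_right), inf_assoc]] at h2
    convert (PCor.iff_of_bijOn (C' := H) (bijOn_Ind hL hφ hS hSL) (bijOn_Ind LH hφ hS2 hSL)
      fun η h3 ξ h4 => ?_).2 h2
    rw [Finset.mem_filter] at h3 h4
    rw [mu, mu, dot_Ind_Ind hL (IrrFix_irr hφ) LH.le HG (IrrFix_irr h3.1) h3.2 (IrrFix_irr h4.1) h4.2]
  · obtain ⟨φ', h2, h3⟩ := below H LH HG hS2 ψ hψ
    have h4 := dot_ne_zero_trans LH.le HG (Irr_isChar (IrrFix_irr hχ)) (IrrFix_irr hψ)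
        (Irr_isChar (IrrFix_irr h2)) (mu_ne_of_not_dvd h) h3
    obtain ⟨g, hg, rfl⟩ := mem_cfclass.1
      ((constt_Res_conj hL (IrrFix_irr hχ) (IrrFix_irr h2) (IrrFix_irr hφ) h4).1 h1)
    obtain ⟨c, h5, h6⟩ := cj_of_fixed hS hc hs hg (IrrFix_inv h2) (IrrFix_inv hφ)
    have h7 : c ∈ H := hH ▸ Subgroup.mem_sup_right h5
    rwa [← h6, dot_cj_right (CF_inv (Irr_CF (IrrFix_irr hψ))) h7 (LH.norm h7)]

end Cfsg.Agent.PF.CH
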