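import Cfsg.Agent.Isa.J6
import Cfsg.Agent.BG.S3Wielandt
import Cfsg.Agent.BG.S1c
import Cfsg.Agent.Invol.Basic

/-! The real vector criterion for the `k(GV)` problem: Weil characters and Gauss sums. (helper12) -/

set_option autoImplicit false
set_option maxSynthPendingDepth 3
set_option linter.unusedVariables false
set_option linter.unusedSectionVars false

namespace Cfsg.Agent.PF.CH

open Cfsg.Agent.BG Cfsg.Agent.Block
open scoped _root_.Classical ComplexConjugate commutatorElement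

universe u
variable {X : Type u} [Group X] [Finite X]
variable {A B C D E G H K L N P Q R S T U V W Z : Subgroup X} {χ ψ φ θ ω η ξ γ τ ν : X → ℂ}
  {a b g h s t v x y : X} {p q r e m n : ℕ} {π : Set ℕ} {c : ℂ}

theorem sum_fs_ite (c : ℂ) : ∑ k ∈ fs (K : Set X), (if k ∈ L then c else 0) = #(K ⊓ L : Subgroup X) * c := by
  rw [← Finset.sum_filter, ← sum_fs_const]
  exact Finset.sum_congr (Finset.ext fun x => by simp) fun _ _ => rfl

theorem conj_eq_root (hs : Sdprod K H ⊤) (hc : (#K).Coprime #H) (hχ : IsChar ⊤ χ) (hi : Res K χ ∈ Irr K)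
    (hx : x ∈ H) : ∃ u : ℂ, u ^ Nat.card X = 1 ∧ conj (χ x) = u * χ x := by
  have := hs.normal.normal
  obtain ⟨m, h1, h2⟩ := Nat.chineseRemainder hc (#K - 1) 1
  obtain ⟨σ, hσ⟩ := Char.exists_ringEquiv_apply_pow (G := X) (m := m) (by
    rw [← Subgroup.card_top, ← hs.card]
    exact .mul_right ((Nat.ModEq.gcd_eq h1).trans ((Nat.coprime_self_sub_left (cardG_pos K)).2
      (Nat.coprime_one_left _))) ((Nat.ModEq.gcd_eq h2).trans (Nat.coprime_one_left _)))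
  replace hσ := hσ χ (mem_ZIrr_top.1 hχ.mem_ZIrr)
  have h3 : ∀ k : K, conj (χ k) = σ (χ k) := fun k => by
    rw [← hσ, ← hχ.apply_inv, pow_eq_pow_iff_modEq.2 (h1.of_dvd (K.orderOf_dvd_natCard k.2)), eq_comm]
    refine congrArg χ (eq_inv_of_mul_eq_one_left ?_)
    rw [← pow_succ, Nat.sub_add_cancel (cardG_pos K)]
    exact orderOf_dvd_iff_pow_eq_one.1 (K.orderOf_dvd_natCard k.2)
  obtain ⟨l, -, h4⟩ := CharDeep.exists_hom_of_res_eq K (isChar_top.1 (hχ.aut (σ : ℂ →+* ℂ)))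
    (by simpa [aut_apply, Res_of_mem] using (mem_Irr.1 (Irr_aut hi (σ : ℂ →+* ℂ))).2) (isChar_top.1 hχ.star) h3
  refine ⟨l x, by rw [← Units.val_pow_eq_pow_val, ← map_pow, pow_card_eq_one', map_one, Units.val_one],
    (congrFun h4 x).trans (congrArg _ ?_)⟩
  exact (hσ x).symm.trans (by rw [pow_eq_pow_iff_modEq.2 (h2.of_dvd (H.orderOf_dvd_natCard hx)), pow_one])

theorem weil (hs : Sdprod K H ⊤) (hc : (#K).Coprime #H) (hZ : Z ≤ K) (hz : Z ≤ C[⊤]) (hp : (#Z).Prime)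
    (h1 : ∀ e ∈ K, e ∉ Z → ∃ y ∈ K, y * e * y⁻¹ * e⁻¹ ∈ Z ∧ y * e * y⁻¹ * e⁻¹ ≠ 1)
    (h2 : ∀ x ∈ H, ∀ e ∈ K, x⁻¹ * (e * x * e⁻¹) ∈ Z → e ∈ C1[x]) :
    ∃ χ, IsChar ⊤ χ ∧ χ 1 ^ 2 = Z.relIndex K ∧
      ∀ x ∈ H, ∃ u : ℂ, u ^ Nat.card X = 1 ∧ u * χ x ^ 2 * C1[x].relIndex K = χ 1 ^ 2 := by
  obtain ⟨z, a1, a2⟩ := (Subgroup.nontrivial_iff_exists_ne_one Z).1 (Finite.one_lt_card_iff_nontrivial.1 hp.one_lt)
  obtain ⟨θ, hθ, -, a3⟩ := exists_Irr_ker_not_mem bot_le (le_top.trans (normal_top ⊥).norm) (hZ a1) a2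
  have a4 : ∀ z ∈ Z, ∀ y, y * z * y⁻¹ = z := fun z h y => mul_inv_eq_iff_eq_mul.2 (hz h y trivial)
  have a5 : ∀ e, e ∉ Z → θ e = 0 := fun e b1 => by_contra fun b2 => by
    have b3 : e ∈ K := by_contra fun e' => b2 ((Irr_CF hθ).1 e e')
    obtain ⟨y, b4, b5, b6⟩ := h1 e b3 b1
    have b7 := Irr_mul_central hθ b3 (hZ b5) fun y _ => by rw [a4 _ b5, mul_inv_cancel]; exact one_mem _
    rw [hz b5 e trivial, inv_mul_cancel_right, CF_inv (Irr_CF hθ) y b4, mul_comm] at b7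
    exact b6 ((prime_TI hp fun e => a3 (e a1)).le ⟨b5, (Irr_mem_cfker hθ).2 (mul_left_cancel₀ b2 b7).symm⟩)
  obtain ⟨χ, hχ, a6⟩ := extend_coprime_irr' hs.normal (hs.relIndexl ▸ hc) hθ (le_inertia_iff.2 fun y _ g => by
    by_cases e : g ∈ Z
    · rw [a4 g e]
    · rw [a5 g e, a5 _ fun e' => e (by rwa [← a4 _ e' y⁻¹, show y⁻¹ * (y * g * y⁻¹) * y⁻¹⁻¹ = g by group] at e')])
  have a7 : ∀ e ∈ K, θ e = χ e := fun e h => a6 ▸ Res_of_mem χ h
  refine ⟨χ, Irr_isChar hχ, mul_left_cancel₀ (cardC_ne_zero Z) ?_, fun x hx => ?_⟩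
  · have b1 := card_mul_dot_of_support (ψ := θ) hZ fun g _ => a5 g
    rw [nrm_eq_one_iff.1 (nrm_Irr hθ), mul_one, card_mul_dot, Finset.sum_congr rfl fun z h => by
      rw [Complex.mul_conj', Irr_norm_eq_deg hθ (hZ (mem_fs.1 h)) fun y _ => by
        rw [← hz (mem_fs.1 h) y trivial]; simp], sum_fs_const] at b1
    rw [← Nat.cast_mul, card_mul_relIndex hZ, b1, ← a7 1 (one_mem K), Irr_apply_one hθ, Complex.ofReal_natCast]
  obtain ⟨u, b1, b2⟩ := conj_eq_root hs hc (Irr_isChar hχ) (a6 ▸ hθ) hx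
  have b3 := Subgroup.zpowers_le.2 hx
  have b4 : Sdprod K (.zpowers x) (K ⊔ .zpowers x) :=
    ⟨rfl, b3.trans hs.norm, le_bot_iff.1 (hs.inf ▸ inf_le_inf_left _ b3)⟩
  have b5 := b4.ler (Subgroup.mem_zpowers x)
  have b6 := Irr_sum_conj (Irr_of_Res b4.lel ((Irr_isChar hχ).res le_top) (by rwa [Res_Res b4.lel, a6]))
    (inv_mem b5) b5
  rw [sum_sdprod b4, Finset.sum_congr rfl fun r hr => (Finset.sum_congr rfl fun k hk => by
    have c1 : x⁻¹ * (k * x * k⁻¹) ∈ K := by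
      simpa [mul_assoc] using K.mul_mem (hs.normal.conj_mem (g := x⁻¹) trivial (mem_fs.1 hk)) (inv_mem (mem_fs.1 hk))
    rw [show k * r * x * (k * r)⁻¹ = k * (r * x * r⁻¹) * k⁻¹ by group, mul_inv_eq_iff_eq_mul.2 (mem_cent1.1
      (Subgroup.zpowers_le.2 (cent1_self x) (mem_fs.1 hr))), Res_of_mem _ (b4.lel c1)]
    split_ifs with c2
    · rw [mem_cent1.1 c2, mul_inv_cancel_right, inv_mul_cancel]
    · rw [← a7 _ c1, a5 _ fun e => c2 (h2 x hx k (mem_fs.1 hk) e)]).trans (sum_fs_ite (L := C1[x]) (χ 1)),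
    sum_fs_const, Res_of_mem _ (one_mem _), Res_of_mem _ b5, Res_of_mem _ (inv_mem b5), Irr_apply_inv hχ, b2,
    ← b4.card, ← card_inf_mul_relIndex C1[x] K, inf_comm] at b6
  refine ⟨u, b1, mul_left_cancel₀ (mul_ne_zero (cardC_ne_zero (C1[x] ⊓ K)) (cardC_ne_zero (.zpowers x))) ?_⟩
  push_cast at b6
  linear_combination -b6

theorem IC.fix {A : Set X} (h : ∀ g ∈ H, ∀ x ∈ A, g * x * g⁻¹ ∈ A) :
    IC H fun g => ((fs A).filter (· ∈ C1[g])).card := by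
  letI : MulAction H A :=
    { smul := fun g x => ⟨g * x * (g : X)⁻¹, h g g.2 x x.2⟩
      one_smul := fun x => Subtype.ext (show ((1 : H) : X) * x * _ = x by simp)
      mul_smul := fun a b x => Subtype.ext (show ((a * b : H) : X) * x * _ = a * (b * x * _) * _ by
        simp [mul_assoc]) }
  refine (char (isChar_extendByZero.2 (Char.isCharacter_card_fixedBy A))).congr fun g hg => ?_
  rw [CharDeep.extendByZero_of_mem _ _ hg, ← Nat.card_eq_finsetCard]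
  exact congrArg _ (Nat.card_congr ⟨fun x => ⟨x.1, by
    simpa [x.1.2] using mem_cent1.2 (mul_inv_eq_iff_eq_mul.1 (congrArg Subtype.val x.2)).symm⟩,
    fun x => ⟨⟨x, mem_fs.1 (Finset.mem_filter.1 x.2).1⟩, Subtype.ext (mul_inv_eq_iff_eq_mul.2
      (mem_cent1.1 (Finset.mem_filter.1 x.2).2).symm)⟩, fun _ => rfl, fun _ => rfl⟩)

theorem IC.sum_fix {ι : Type} [Fintype ι] (hW : H ≤ N[W]) {f : X → ι} (hf : ∀ g ∈ H, ∀ w ∈ W, f (g * w * g⁻¹) = f w)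
    {F : ι → ℂ} (hF : ∀ i, IsIntegral ℤ (F i)) : IC H fun g => ∑ w ∈ fs (↑(W ⊓ C1[g]) : Set X), F (f w) :=
  (sum (s := Finset.univ) fun i _ => smul (hF i) (fix (A := {w | w ∈ W ∧ f w = i}) fun g hg x hx =>
    ⟨conj_mem_of_norm (hW hg) hx.1, (hf g hg x hx.1).trans hx.2⟩)).congr fun g hg => by
      rw [Finset.sum_apply, ← Finset.sum_fiberwise _ f]
      refine Finset.sum_congr rfl fun i _ => ?_
      rw [Finset.sum_congr rfl fun w hw => by rw [(Finset.mem_filter.1 hw).2], Finset.sum_const, Pi.smul_apply,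
        smul_eq_mul, nsmul_eq_mul, mul_comm]
      congr 3
      ext x
      simp [and_right_comm]

theorem IC.index (hp : p.Prime) (hW : PiGrp {p} W) (hn : H ≤ N[W]) :
    ∃ k, IC H fun g => (p : ℂ) ^ k * C1[g].relIndex W := by
  have h1 : IC H fun g => #(W ⊓ C1[g] : Subgroup X) :=
    (sum_fix hn (f := fun _ => ()) (F := fun _ => 1) (fun _ _ _ _ => rfl) fun _ => isIntegral_one).congr
      fun g _ => (sum_fs_const _ _).trans (mul_one _)
  have h2 : ∀ n, ∃ k, ∃ F, IC H F ∧ ∃ ε : ℤ, ε ^ 2 = 1 ∧ ∀ g ∈ H, ∏ a ∈ Finset.range n,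
      ((#(W ⊓ C1[g] : Subgroup X) : ℂ) - p ^ a) = #(W ⊓ C1[g] : Subgroup X) * F g + ε * p ^ k := fun n => by
    induction n with
    | zero => exact ⟨0, 0, .char isChar_zero, 1, rfl, by simp⟩
    | succ n ih =>
      obtain ⟨k, F, a1, ε, a2, a3⟩ := ih
      refine ⟨k + n, _, ((h1.mul a1).add (a1.smul (isIntegral_natCast (p ^ n)).neg)).add (.smul
        ((isIntegral_intCast ε).mul (isIntegral_natCast (p ^ k))) (.char (isChar_one H))), -ε, by rwa [neg_sq],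
        fun g hg => ?_⟩
      rw [Finset.prod_range_succ, a3 g hg]
      simp only [Pi.add_apply, Pi.mul_apply, Pi.smul_apply, smul_eq_mul, one_of_mem hg]
      push_cast
      ring
  obtain ⟨n, a1⟩ := (p_natP hp).1 hW
  obtain ⟨k, F, a2, ε, a3, a4⟩ := h2 (n + 1)
  refine ⟨k, (a2.smul ((isIntegral_intCast (-ε)).mul (isIntegral_natCast #W))).congr fun g hg => ?_⟩
  obtain ⟨a, b1, b2⟩ := (Nat.dvd_prime_pow hp).1 (a1 ▸ cardSg (inf_le_left : W ⊓ C1[g] ≤ W))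
  have b3 := a4 g hg
  rw [Finset.prod_eq_zero (Finset.mem_range_succ_iff.2 b1) (by rw [b2]; simp)] at b3
  have b4 : (ε : ℂ) ^ 2 = 1 := by exact_mod_cast a3
  rw [← card_inf_mul_relIndex C1[g] W, inf_comm, Pi.smul_apply, smul_eq_mul]
  push_cast
  linear_combination (ε * C1[g].relIndex W) * b3 + (p ^ k * C1[g].relIndex W) * b4

variable {M : Ideal AlgInt} [PMod p M]

theorem Kn.of_gamma (hW : PiGrp {p} W) (hH : PiGrp {p}ᶜ H) (hn : H ≤ N[W]) (hγ : IC H γ) (hc : IsIntegral ℤ c)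
    (h1 : c * γ 1 = #W) (h2 : ∀ g ∈ H, η g * γ 1 = γ g * C1[g].relIndex W) (hi : ∀ g ∈ H, IsIntegral ℤ (η g))
    (hl : ∀ σ : ℂ ≃+* ℂ, ∀ g ∈ H, ‖σ (η g)‖ ^ 2 ≤ C1[g].relIndex W)
    (h0 : ∀ g ∈ H, p ∣ C1[g].relIndex W → red M (η g) = 0) : Kn M H W η := by
  have hp := PMod.prime M
  obtain ⟨k, a1⟩ := IC.index hp hW hn
  refine ⟨.of_smul (n := p ^ k * #W) (((hγ.mul a1).smul hc).congr fun g hg => ?_) (pnat_coprime
    (pnat_mul.2 ⟨(p_natP hp).2 ⟨k, rfl⟩, hW⟩) hH) hi, hl, fun g hg e => h0 g hg ?_, ?_⟩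
  · simp only [Pi.smul_apply, Pi.mul_apply, smul_eq_mul, Nat.cast_mul, Nat.cast_pow]
    linear_combination -(c * p ^ k) * h2 g hg + (p ^ k * η g) * h1
  · obtain ⟨n, a2⟩ := (p_natP hp).1 hW
    obtain ⟨a, -, a3⟩ := (Nat.dvd_prime_pow hp).1 (a2 ▸ Subgroup.relIndex_dvd_card C1[g] W)
    exact a3 ▸ dvd_pow_self p fun e' => e (le_cent1_iff.1 (Subgroup.relIndex_eq_one.1 (by rw [a3, e', pow_zero])))
  · have := h2 1 (one_mem H)
    rw [cent1_one, Subgroup.relIndex_top_left, Nat.cast_one, mul_one, mul_eq_right₀ fun e =>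
      cardC_ne_zero W (by rw [← h1, e, mul_zero])] at this
    simp [this]

/-- invariant bilinear forms -/
class Fm (H W : Subgroup X) (β : X → X → ZMod p) : Prop where
  norm : H ≤ N[W]
  l : ∀ u ∈ W, ∀ u' ∈ W, ∀ w ∈ W, β (u * u') w = β u w + β u' w
  r : ∀ u ∈ W, ∀ w ∈ W, ∀ w' ∈ W, β u (w * w') = β u w + β u w'
  inv : ∀ h ∈ H, ∀ u ∈ W, ∀ w ∈ W, β (h * u * h⁻¹) (h * w * h⁻¹) = β u w

/-- nondegeneracy -/
def ND (W : Subgroup X) (β : X → X → ZMod p) : Prop := ∀ u ∈ W, (∀ w ∈ W, β u w = 0) → u = 1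

variable {β β' : X → X → ZMod p}

theorem add_one {F : X → ZMod p} (h : ∀ u ∈ W, ∀ u' ∈ W, F (u * u') = F u + F u') : F 1 = 0 := by
  simpa using h 1 (one_mem _) 1 (one_mem _)

theorem add_inv {F : X → ZMod p} (h : ∀ u ∈ W, ∀ u' ∈ W, F (u * u') = F u + F u') (ha : a ∈ W) : F a⁻¹ = -F a :=
  eq_neg_of_add_eq_zero_left (by rw [← h _ (inv_mem ha) a ha, inv_mul_cancel, add_one h])

/-- the kernel of a family of additive maps -/
def aker {ι : Type*} (F : ι → X → ZMod p) (h : ∀ i, ∀ u ∈ W, ∀ u' ∈ W, F i (u * u') = F i u + F i u') :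
    Subgroup X where
  carrier := {u | u ∈ W ∧ ∀ i, F i u = 0}
  one_mem' := ⟨one_mem _, fun i => add_one (h i)⟩
  mul_mem' ha hb := ⟨mul_mem ha.1 hb.1, fun i => by rw [h i _ ha.1 _ hb.1, ha.2, hb.2, add_zero]⟩
  inv_mem' ha := ⟨inv_mem ha.1, fun i => by rw [add_inv (h i) ha.1, ha.2, neg_zero]⟩

theorem add_van {F : X → ZMod p} (h : ∀ u ∈ W, ∀ u' ∈ W, F (u * u') = F u + F u') (hN : N ≤ N[W])
    (hi : ∀ k ∈ N, ∀ u ∈ W, F (k * u * k⁻¹) = F u) (ha : a ∈ ⁅W, N⁆) : F a = 0 :=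
  (Subgroup.commutator_le.2 (fun w b1 k b2 => by
    have b3 := conj_mem_of_norm (hN b2) (inv_mem b1)
    rw [show ⁅w, k⁆ = w * (k * w⁻¹ * k⁻¹) by rw [commutatorElement_def]; group]
    exact ⟨mul_mem b1 b3, fun _ => (h w b1 _ b3).trans <| by rw [hi k b2 _ (inv_mem b1), add_inv h b1, add_neg_cancel]⟩ :
    ∀ w ∈ W, ∀ k ∈ N, ⁅w, k⁆ ∈ aker (fun _ : Unit => F) fun _ => h) ha).2 ()

namespace Fm

theorem l1 (f : Fm H W β) (ha : a ∈ W) : β 1 a = 0 := add_one (F := (β · a)) fun u c u' d => f.l u c u' d a ha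
theorem r1 (f : Fm H W β) (ha : a ∈ W) : β a 1 = 0 := add_one (F := β a) (f.r a ha)

theorem symm (h : Fm H W β) : Fm H W fun a b => β b a :=
  ⟨h.norm, fun u a u' b w c => h.r w c u a u' b, fun u a w b w' c => h.l w b w' c u a,
    fun g a u b w c => h.inv g a w c u b⟩

theorem add (h : Fm H W β) (h' : Fm H W β') : Fm H W fun a b => β a b + β' a b :=
  ⟨h.norm, fun u a u' b w c => by rw [h.l u a u' b w c, h'.l u a u' b w c]; ring,
    fun u a u' b w c => by rw [h.r u a u' b w c, h'.r u a u' b w c]; ring,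
    fun u a u' b w c => by rw [h.inv u a u' b w c, h'.inv u a u' b w c]⟩

theorem mono (h : Fm H W β) (hU : U ≤ W) (hK : K ≤ H) (hn : K ≤ N[U]) : Fm K U β :=
  ⟨hn, fun u a u' b w c => h.l u (hU a) u' (hU b) w (hU c), fun u a u' b w c => h.r u (hU a) u' (hU b) w (hU c),
    fun u a u' b w c => h.inv u (hK a) u' (hU b) w (hU c)⟩

theorem orth (h : Fm H W β) (hN : N ≤ H) (ha : a ∈ ⁅W, N⁆) (hb : b ∈ W ⊓ C[N]) : β a b = 0 :=
  add_van (F := (β · b)) (fun u c u' d => h.l u c u' d b hb.1) (hN.trans h.norm) (fun k c u d => by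
    rw [← h.inv k (hN c) u d b hb.1, mul_inv_eq_iff_eq_mul.2 (hb.2 k c)]) ha

theorem nd (h : Fm H W β) (hn : ND W β) (hs : Sdprod A B W) (ho : ∀ a ∈ A, ∀ b ∈ B, β a b = 0) : ND A β :=
  fun u b1 b2 => hn u (hs.lel b1) fun w b3 => by
    obtain ⟨a, b4, b, b5, rfl⟩ := hs.mem b3
    rw [h.r u (hs.lel b1) a (hs.lel b4) b (hs.ler b5), b2 a b4, ho u b1 b b5, add_zero]

theorem gs_norm [Fact p.Prime] (h : Fm H W β) (hn : ND W fun a b => β a b + β b a) {ψ : AddChar (ZMod p) ℂ}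
    (hψ : ψ ≠ 1) : ‖∑ w ∈ fs (W : Set X), ψ (β w w)‖ ^ 2 = #W := by
  have h1 : ∀ d ∈ W, ∑ x ∈ fs (W : Set X), ψ (β d x + β x d) = if d ∈ (⊥ : Subgroup X) then (#W : ℂ) else 0 :=
    fun d hd => by
    split_ifs with e
    · rw [show d = 1 from e, ← mul_one (#W : ℂ), ← sum_fs_const]
      refine Finset.sum_congr rfl fun x hx => ?_
      rw [add_one (F := fun a => β a x + β x a) fun u a u' b => (h.add h.symm).l u a u' b x (mem_fs.1 hx), ψ.map_zero_eq_one]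
    obtain ⟨y, b1, b2⟩ : ∃ y ∈ W, β d y + β y d ≠ 0 := by_contra fun e' => e (hn d hd (by simpa using e'))
    have b3 := sum_mul_left b1 fun x => ψ (β d x + β x d)
    rw [Finset.sum_congr rfl fun x hx => by
      rw [(h.add h.symm).r d hd y b1 x (mem_fs.1 hx), ψ.map_add_eq_mul], ← Finset.mul_sum] at b3
    exact by_contra fun e' => b2 (((AddChar.IsPrimitive.of_ne_one hψ).zmod_char_eq_one_iff p _).1
      ((mul_eq_right₀ e').1 b3))
  apply Complex.ofReal_injective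
  push_cast
  rw [← Complex.mul_conj', map_sum, Finset.mul_sum, Finset.sum_congr rfl fun x hx => by
    rw [← sum_mul_left (mem_fs.1 hx), Finset.sum_mul, Finset.sum_congr rfl fun d hd => by
      have a1 := mem_fs.1 hx
      have a2 := mem_fs.1 hd
      rw [← AddChar.map_neg_eq_conj, ← ψ.map_add_eq_mul, h.l x a1 d a2 _ (mul_mem a1 a2), h.r x a1 x a1 d a2,
        h.r d a2 x a1 d a2, show β x x + β x d + (β d x + β d d) + -β x x = β d d + (β d x + β x d) by ring,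
        ψ.map_add_eq_mul]], Finset.sum_comm, Finset.sum_congr rfl fun d hd => by
    rw [← Finset.mul_sum, h1 d (mem_fs.1 hd)], Finset.sum_eq_single 1 (fun d _ e => by simp [e]) (by simp)]
  simp [h.l1 (one_mem _)]

end Fm

theorem Kn.gauss (h : Fm H W β) (hab : IsMulCommutative W) (hW : PiGrp {p} W) (hH : PiGrp {p}ᶜ H)
    (hn : ND W fun a b => β a b + β b a) : ∃ η, Kn M H W η := by
  have hq := PMod.prime M
  have := Fact.mk hq
  obtain ⟨ψ, a1⟩ : ∃ ψ : AddChar (ZMod p) ℂ, ψ ≠ 1 := ⟨ZMod.stdAddChar, fun e =>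
    ZMod.isPrimitive_stdAddChar p one_ne_zero (by simpa using e)⟩
  have a2 : ∀ x, ψ x ^ p ^ 1 = 1 := fun x => by
    rw [← AddChar.map_nsmul_eq_pow, pow_one, nsmul_eq_mul, CharP.cast_eq_zero, zero_mul, AddChar.map_zero_eq_one]
  have a3 : ∀ x, IsIntegral ℤ (ψ x) := fun x => IsIntegral.of_pow (pow_pos hq.pos 1) (a2 x ▸ isIntegral_one)
  have a4 : ∀ g ∈ H, Dprod ⁅W, Subgroup.zpowers g⁆ (W ⊓ C[Subgroup.zpowers g]) W := fun g hg =>
    coprime_abelian_cent_dprod ((Subgroup.zpowers_le.2 hg).trans h.norm)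
      (pnat_coprime hW (pgroupS (Subgroup.zpowers_le.2 hg) hH)) hab
  have a5 : ∀ g ∈ H, #(⁅W, Subgroup.zpowers g⁆ : Subgroup X) = C1[g].relIndex W := fun g hg =>
    Nat.eq_of_mul_eq_mul_left (cardG_pos (C1[g] ⊓ W)) (by
      rw [card_inf_mul_relIndex, ← (a4 g hg).card, C_zpowers, mul_comm, inf_comm])
  have a6 : ∀ g ∈ H, ∀ φ : AddChar (ZMod p) ℂ, φ ≠ 1 →
      ‖∑ w ∈ fs ((⁅W, Subgroup.zpowers g⁆ : Subgroup X) : Set X), φ (β w w)‖ ^ 2 = C1[g].relIndex W := fun g hg φ e =>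
    a5 g hg ▸ (h.mono (a4 g hg).lel bot_le bot_le).gs_norm ((h.add h.symm).nd hn (a4 g hg).sdprod fun a b1 b b2 =>
      (h.add h.symm).orth (Subgroup.zpowers_le.2 hg) b1 b2) e
  have a7 : ∀ (z : ℂ) (n : ℕ), ‖z‖ ^ 2 = n → conj z * z = n := fun z n e => by
    rw [Complex.conj_mul']; exact_mod_cast e
  refine ⟨fun g => conj (∑ w ∈ fs ((⁅W, Subgroup.zpowers g⁆ : Subgroup X) : Set X), ψ (β w w)), .of_gamma hW hH h.norm
    (IC.sum_fix h.norm (f := fun w => β w w) (fun g a w b => h.inv g a w b w b) a3)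
    (Char.isIntegral_conj (IsIntegral.sum (s := fs (W : Set X)) (fun w => ψ (β w w)) fun w _ => a3 _)) ?_ (fun g hg => ?_)
    (fun g _ => Char.isIntegral_conj (IsIntegral.sum _ fun w _ => a3 _)) (fun σ g hg => ?_) fun g hg e => ?_⟩
  · rw [cent1_one, inf_top_eq, a7 _ _ (h.gs_norm hn a1)]
  · rw [cent1_one, inf_top_eq, sum_sdprod (a4 g hg).sdprod, ← a7 _ _ (a6 g hg ψ a1), mul_left_comm, ← C_zpowers,
      Finset.sum_mul]
    refine congrArg _ (Finset.sum_congr rfl fun c b1 => ?_)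
    rw [Finset.mul_sum]
    refine Finset.sum_congr rfl fun d b2 => ?_
    replace b1 := mem_fs.1 b1
    replace b2 := mem_fs.1 b2
    have b3 := (a4 g hg).lel b2
    rw [h.l d b3 c b1.1 _ (mul_mem b3 b1.1), h.r d b3 d b3 c b1.1, h.r c b1.1 d b3 c b1.1, h.orth
      (Subgroup.zpowers_le.2 hg) b2 b1, h.symm.orth (Subgroup.zpowers_le.2 hg) b2 b1, add_zero, zero_add,
      ψ.map_add_eq_mul, mul_comm]
  · refine (Eq.trans ?_ (a6 g hg ((σ : ℂ →+* ℂ).toMonoidHom.compAddChar ψ⁻¹) fun e => a1 (inv_eq_one.1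
      (AddChar.ext _ _ fun x => σ.injective (by simpa using congrArg (· x) e))))).le
    simp [AddChar.map_neg_eq_conj]
  · rw [map_sum, Finset.sum_congr rfl fun w _ => (AddChar.map_neg_eq_conj ψ _).symm, red_sum _ fun w _ =>
      mem_O_of_isIntegral (a3 _), Finset.sum_congr rfl fun w _ => red_eq_one_of_pow_p_pow (a2 _), Finset.sum_const,
      card_fs_subgroup, a5 g hg, nsmul_eq_mul, mul_one, natCast_F_eq_zero_iff]
    exact e

/-- the Heisenberg group of `β`, extended by `H` -/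
@[ext] structure Hs (H W : Subgroup X) (β : X → X → ZMod p) where
  w : X
  s : ZMod p
  h : X
  hw : w ∈ W
  hh : h ∈ H

namespace Hs
variable [f : Fm H W β]

instance kgvHsMul : Mul (Hs H W β) := ⟨fun a b => ⟨a.w * (a.h * b.w * a.h⁻¹), a.s + b.s + β a.w (a.h * b.w * a.h⁻¹),
  a.h * b.h, mul_mem a.hw (conj_mem_of_norm (f.norm a.hh) b.hw), mul_mem a.hh b.hh⟩⟩
instance kgvHsOne : One (Hs H W β) := ⟨⟨1, 0, 1, one_mem _, one_mem _⟩⟩
instance kgvHsInv : Inv (Hs H W β) := ⟨fun a => ⟨a.h⁻¹ * a.w⁻¹ * a.h⁻¹⁻¹, -a.s + β a.w a.w, a.h⁻¹,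
  conj_mem_of_norm (f.norm (inv_mem a.hh)) (inv_mem a.hw), inv_mem a.hh⟩⟩
@[simp] theorem mul_w (a b : Hs H W β) : (a * b).w = a.w * (a.h * b.w * a.h⁻¹) := rfl
@[simp] theorem mul_s (a b : Hs H W β) : (a * b).s = a.s + b.s + β a.w (a.h * b.w * a.h⁻¹) := rfl
@[simp] theorem mul_h (a b : Hs H W β) : (a * b).h = a.h * b.h := rfl
@[simp] theorem inv_w (a : Hs H W β) : a⁻¹.w = a.h⁻¹ * a.w⁻¹ * a.h⁻¹⁻¹ := rfl
@[simp] theorem inv_s (a : Hs H W β) : a⁻¹.s = -a.s + β a.w a.w := rfl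
@[simp] theorem inv_h (a : Hs H W β) : a⁻¹.h = a.h⁻¹ := rfl
@[simp] theorem one_w : (1 : Hs H W β).w = 1 := rfl
@[simp] theorem one_s : (1 : Hs H W β).s = 0 := rfl
@[simp] theorem one_h : (1 : Hs H W β).h = 1 := rfl

instance kgvHsGroup : Group (Hs H W β) := Group.ofLeftAxioms (fun a b c => by
    have h1 := conj_mem_of_norm (f.norm a.hh) b.hw
    have h2 := conj_mem_of_norm (f.norm b.hh) c.hw
    have h3 := conj_mem_of_norm (f.norm a.hh) h2
    refine Hs.ext (by simp only [mul_w, mul_h]; group) ?_ (mul_assoc _ _ _)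
    simp only [mul_w, mul_h, mul_s]
    rw [show a.h * b.h * c.w * (a.h * b.h)⁻¹ = a.h * (b.h * c.w * b.h⁻¹) * a.h⁻¹ by group, f.l _ a.hw _ h1 _ h3,
      f.inv _ a.hh _ b.hw _ h2, show a.h * (b.w * (b.h * c.w * b.h⁻¹)) * a.h⁻¹ = a.h * b.w * a.h⁻¹ *
        (a.h * (b.h * c.w * b.h⁻¹) * a.h⁻¹) by group, f.r _ a.hw _ h1 _ h3]
    ring)
  (fun a => Hs.ext (by simp) (by simp [f.l1 a.hw]) (one_mul _)) fun a => Hs.ext (by simp [mul_assoc]) (by
    rw [mul_s, inv_w, inv_s, inv_h, f.inv _ (inv_mem a.hh) _ (inv_mem a.hw) _ a.hw,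
      add_inv (F := (β · a.w)) (fun u c u' d => f.l u c u' d _ a.hw) a.hw]
    simp) (inv_mul_cancel _)

instance kgvHsFinite [Fact p.Prime] : Finite (Hs H W β) := .of_injective (fun a => (a.w, a.s, a.h)) fun a b e => by
  simp only [Prod.mk.injEq] at e
  exact Hs.ext e.1 e.2.1 e.2.2

end Hs

theorem Kn.heis (h : Fm H W β) (hab : IsMulCommutative W) (hW : PiGrp {p} W) (hH : PiGrp {p}ᶜ H)
    (hn : ND W fun a b => β a b - β b a) : ∃ η, Kn M H W η := by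
  have hq := PMod.prime M
  have := Fact.mk hq
  have l1 := fun {a} => h.l1 (a := a)
  have r1 := fun {a} => h.r1 (a := a)
  let π : Hs H W β →* X := ⟨⟨Hs.h, rfl⟩, fun _ _ => rfl⟩
  let ι : H →* Hs H W β := ⟨⟨fun g => ⟨1, 0, g, one_mem _, g.2⟩, rfl⟩, fun a b => Hs.ext (by simp)
    (by simp [r1]) rfl⟩
  let φ : π.ker →* X := ⟨⟨fun x => x.1.w, rfl⟩, fun a b => by simp [show a.1.h = 1 from a.2]⟩
  have a1 : φ.range = W := le_antisymm (by rintro _ ⟨x, rfl⟩; exact x.1.hw) fun w hw =>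
    ⟨⟨⟨w, 0, 1, hw, one_mem _⟩, rfl⟩, rfl⟩
  have a2 : ∀ x, x ∈ φ.ker.map π.ker.subtype ↔ x.h = 1 ∧ x.w = 1 := fun x =>
    ⟨by rintro ⟨x, e, rfl⟩; exact ⟨x.2, e⟩, fun e => ⟨⟨x, e.1⟩, e.2, rfl⟩⟩
  have a3 : #(φ.ker.map π.ker.subtype) = p := (Nat.card_congr ⟨fun x => x.1.s, fun s =>
    ⟨⟨1, s, 1, one_mem _, one_mem _⟩, (a2 _).2 ⟨rfl, rfl⟩⟩, fun x => Subtype.ext (Hs.ext ((a2 _).1 x.2).2.symm rfl
      ((a2 _).1 x.2).1.symm), fun _ => rfl⟩).trans (Nat.card_zmod p)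
  have a4 : (φ.ker.map π.ker.subtype).relIndex π.ker = #W := by
    rw [Subgroup.relIndex, Subgroup.subgroupOf, Subgroup.comap_map_eq_self_of_injective (Subgroup.subtype_injective _),
      Subgroup.index_ker, a1]
  have a5 : ∀ (g : H) (x : π.ker), x.1 ∈ C1[ι g] ↔ φ x ∈ C1[g.1] := fun g x => by
    have := x.1.hw
    simp [mem_cent1, Hs.ext_iff, ι, φ, show x.1.h = 1 from x.2, l1 (conj_mem_of_norm (h.norm g.2) this), r1 this,
      eq_mul_inv_iff_mul_eq]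
  have a6 : ∀ g : H, C1[ι g].relIndex π.ker = C1[g.1].relIndex W := fun g =>
    (congrArg Subgroup.index (Subgroup.ext (a5 g) : C1[ι g].subgroupOf π.ker = C1[g.1].comap φ)).trans
      ((Subgroup.index_comap _ φ).trans (congrArg C1[g.1].relIndex a1))
  have a7 : Sdprod π.ker ι.range ⊤ := ⟨top_unique fun x _ => by
    rw [show x = ⟨x.w, x.s, 1, x.hw, one_mem _⟩ * ι ⟨x.h, x.hh⟩ from Hs.ext (by simp [ι]) (by simp [ι, r1 x.hw])
      (by simp [ι])]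
    exact Subgroup.mul_mem_sup rfl ⟨_, rfl⟩, le_top.trans (normal_top _).norm, le_bot_iff.1 (by
      rintro _ ⟨e, g, rfl⟩
      exact Hs.ext rfl rfl e)⟩
  obtain ⟨χ, b1, b2, b3⟩ := weil a7 (by
      rw [← card_mul_relIndex (Subgroup.map_subtype_le φ.ker), a3, a4]
      exact (pnat_coprime (pnat_mul.2 ⟨(p_natP hq).2 ⟨1, (pow_one p).symm⟩, hW⟩) hH).coprime_dvd_right
        (Subgroup.card_dvd_of_surjective _ ι.rangeRestrict_surjective))
    (Subgroup.map_subtype_le φ.ker) (fun z e y _ => by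
      obtain ⟨e1, e2⟩ := (a2 z).1 e
      exact Hs.ext (by simp [e1, e2]) (by simp [e1, e2, l1 y.hw, r1 y.hw, add_comm]) (by simp [e1]))
    (a3.symm ▸ hq) (fun e c1 c2 => by
      replace c1 : e.h = 1 := c1
      obtain ⟨w, c3, c4⟩ : ∃ w ∈ W, β e.w w - β w e.w ≠ 0 := by_contra fun e' => c2 ((a2 e).2 ⟨c1,
        hn _ e.hw (by simpa using e')⟩)
      have c5 : (⟨w, 0, 1, c3, one_mem _⟩ : Hs H W β) * e * (⟨w, 0, 1, c3, one_mem _⟩ : Hs H W β)⁻¹ * e⁻¹ =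
          ⟨1, β w e.w - β e.w w, 1, one_mem _, one_mem _⟩ := by
        rw [mul_inv_eq_iff_eq_mul, mul_inv_eq_iff_eq_mul]
        exact Hs.ext (by simpa [c1] using IsMulCommutative.comm hab c3 e.hw) (by simp [c1, l1 e.hw]; ring)
          (by simp)
      exact ⟨⟨w, 0, 1, c3, one_mem _⟩, rfl, c5 ▸ (a2 _).2 ⟨rfl, rfl⟩, fun e' => c4 (by
        rw [← neg_sub, show β w e.w - β e.w w = 0 from congrArg Hs.s (c5.symm.trans e'), neg_zero])⟩)
    (by
      rintro _ ⟨g, rfl⟩ e c1 c2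
      replace c2 := ((a2 _).1 c2).2
      refine (a5 g ⟨e, c1⟩).2 (mem_cent1.2 (eq_mul_inv_iff_mul_eq.1 ?_).symm)
      simpa [ι, φ, show e.h = 1 from c1, mul_assoc, inv_mul_eq_one] using c2)
  have b4 : χ 1 ≠ 0 := fun e => cardC_ne_zero W (by rw [← a4, ← b2, e, zero_pow two_ne_zero])
  have b5 : ∀ g (hg : g ∈ H), ∃ u : ℂ, u ^ Nat.card (Hs H W β) = 1 ∧
      (extendByZero H (fun g => χ (ι g)) g * C1[g].relIndex W / χ 1) ^ 2 = u * C1[g].relIndex W := fun g hg => by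
    obtain ⟨u, c1, c2⟩ := b3 _ ⟨⟨g, hg⟩, rfl⟩
    have c3 : u ≠ 0 := fun e => by simp [e, Nat.card_pos.ne'] at c1
    refine ⟨u⁻¹, by rw [inv_pow, c1, inv_one], ?_⟩
    rw [CharDeep.extendByZero_of_mem _ _ hg, div_pow, div_eq_iff (pow_ne_zero 2 b4), ← c2, a6]
    field_simp
  have b6 : ∀ u : ℂ, u ^ Nat.card (Hs H W β) = 1 → IsIntegral ℤ u := fun u e =>
    IsIntegral.of_pow Nat.card_pos (e ▸ isIntegral_one)
  have b7 : ∀ g ∈ H, IsIntegral ℤ (extendByZero H (fun g => χ (ι g)) g * C1[g].relIndex W / χ 1) := fun g hg => by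
    obtain ⟨u, c1, c2⟩ := b5 g hg
    exact IsIntegral.of_pow two_pos (c2 ▸ (b6 u c1).mul (isIntegral_natCast _))
  have b8 : extendByZero H (fun g => χ (ι g)) 1 = χ 1 := CharDeep.extendByZero_of_mem _ _ (one_mem H)
  refine ⟨_, .of_gamma hW hH h.norm (.char (isChar_extendByZero.2 ((isChar_top.1 b1).comp ι)))
    (ZIrr_isIntegral b1.mem_ZIrr 1) (by rw [b8, ← sq, b2, a4]) (fun g hg => by rw [b8, div_mul_cancel₀ _ b4]) b7
    (fun σ g hg => ?_) fun g hg e => ?_⟩ <;> obtain ⟨u, c1, c2⟩ := b5 g hg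
  · rw [← norm_pow, ← map_pow, c2, map_mul, norm_mul, map_natCast, Complex.norm_natCast,
      (pow_eq_one_iff_of_nonneg (norm_nonneg _) Nat.card_pos.ne').1 (by
        rw [← norm_pow, ← map_pow, c1, map_one, NormOneClass.norm_one]), one_mul]
  · refine (pow_eq_zero_iff two_ne_zero).1 ?_
    rw [← red_pow (mem_O_of_isIntegral (b7 g hg)), c2, red_mul (mem_O_of_isIntegral (b6 u c1)) (natCast_mem _ _),
      red_natCast, (natCast_F_eq_zero_iff _).2 e, mul_zero]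

theorem Fm.half (h : Fm H U β) (ho : Odd #H) (hN : N ⊴ H)
    (hs : ∀ a ∈ ⁅U, N⁆, ∀ b ∈ ⁅U, N⁆, β a b = β b a) :
    ∃ β' : X → X → ZMod p, Fm H ⁅U, N⁆ β' ∧ ∀ a ∈ ⁅U, N⁆, ∀ b ∈ ⁅U, N⁆, β' a b + β' b a = -β a b := by
  obtain ⟨e, he⟩ := exists_injective_nat (Set X)
  obtain ⟨f, a1, a2⟩ : ∃ f : X → ℕ, (∀ y ∈ H, ∀ k, f (y * k * y⁻¹) = f k) ∧ ∀ k ∈ H, f k = f k⁻¹ → k = 1 := by
    refine ⟨fun k => e {x | ∃ y ∈ H, x = y * k * y⁻¹}, fun y hy k => congrArg e (Set.ext fun x =>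
      ⟨fun ⟨z, b1, b2⟩ => ⟨z * y, mul_mem b1 hy, by rw [b2]; group⟩,
        fun ⟨z, b1, b2⟩ => ⟨z * y⁻¹, mul_mem b1 (inv_mem hy), by rw [b2]; group⟩⟩), fun k hk e' => ?_⟩
    obtain ⟨y, b1, b2⟩ := (he e').ge (show k⁻¹ ∈ _ from ⟨1, one_mem H, by simp⟩)
    exact orderOf_eq_one_iff.1 (Nat.eq_one_of_dvd_coprimes (ho.coprime_two_left) (orderOf_dvd_of_pow_eq_one
      ((pow_two k).trans (Invol.mul_self_eq_one_of_odd_inverts b2.symm (ho.of_dvd_nat (H.orderOf_dvd_natCard b1)))))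
      (H.orderOf_dvd_natCard hk))
  have a3 := commg_subl (hN.le.trans h.norm)
  have a4 := normsR h.norm hN.norm
  have a5 := h.mono a3 le_rfl a4
  have a6 : ∀ y ∈ H, ∀ a ∈ U, ∀ b ∈ U, ∀ F : X → Prop, (∀ k, F (y * k * y⁻¹) ↔ F k) →
      ∑ k ∈ fs (H : Set X), (if F k then β (y * a * y⁻¹) (k * (y * b * y⁻¹) * k⁻¹) else 0) =
      ∑ k ∈ fs (H : Set X), if F k then β a (k * b * k⁻¹) else 0 := fun y b1 a b2 b b3 F b4 => by
    rw [← sum_conj (normG H b1)]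
    refine Finset.sum_congr rfl fun k b5 => ?_
    rw [← h.inv y b1 a b2 _ (conj_mem_of_norm (h.norm (mem_fs.1 b5)) b3), if_congr (b4 k) rfl rfl]
    congr 2
    group
  refine ⟨fun a b => ∑ k ∈ fs (H : Set X), if f k < f k⁻¹ then β a (k * b * k⁻¹) else 0, ⟨a4,
    fun u b1 u' b2 w b3 => ?_, fun u b1 w b2 w' b3 => ?_, fun y b1 a b2 b b3 => ?_⟩, fun a b1 b b2 => ?_⟩
  · rw [← Finset.sum_add_distrib]
    refine Finset.sum_congr rfl fun k b4 => ?_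
    rw [a5.l u b1 u' b2 _ (conj_mem_of_norm (a4 (mem_fs.1 b4)) b3), ite_add_ite, add_zero]
  · rw [← Finset.sum_add_distrib]
    refine Finset.sum_congr rfl fun k b4 => ?_
    rw [ite_add_ite, add_zero, ← a5.r u b1 _ (conj_mem_of_norm (a4 (mem_fs.1 b4)) b2) _
      (conj_mem_of_norm (a4 (mem_fs.1 b4)) b3), conj_mul]
  · convert a6 y b1 a (a3 b2) b (a3 b3) (fun k => f k < f k⁻¹) fun k => by rw [conj_inv, a1 y b1, a1 y b1]
  have b3 : ∑ k ∈ fs (H : Set X), β a (k * b * k⁻¹) = 0 := add_van (F := fun a => ∑ k ∈ fs (H : Set X),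
    β a (k * b * k⁻¹)) (fun u c1 u' c2 => by
      rw [← Finset.sum_add_distrib]
      exact Finset.sum_congr rfl fun k c3 => h.l u c1 u' c2 _ (conj_mem_of_norm (h.norm (mem_fs.1 c3)) (a3 b2)))
    (hN.le.trans h.norm) (fun y c1 u c2 => by
      rw [← sum_mul_left (hN.le c1)]
      refine Finset.sum_congr rfl fun k c3 => ?_
      rw [← h.inv y (hN.le c1) u c2 _ (conj_mem_of_norm (h.norm (mem_fs.1 c3)) (a3 b2))]
      congr 1
      group) b1
  beta_reduce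
  rw [← sum_inv H fun k => if f k < f k⁻¹ then β b (k * a * k⁻¹) else 0, ← Finset.sum_add_distrib,
    eq_neg_iff_add_eq_zero]
  refine Eq.trans ?_ b3
  rw [← Finset.add_sum_erase _ _ (mem_fs.2 (one_mem H)), ← Finset.add_sum_erase _ (fun k => β a (k * b * k⁻¹))
    (mem_fs.2 (one_mem H)), add_comm]
  simp only [inv_one, lt_irrefl, if_false, add_zero, zero_add, one_mul, mul_one]
  refine congrArg _ (Finset.sum_congr rfl fun k c1 => ?_)
  obtain ⟨c2, c3⟩ := Finset.mem_erase.1 c1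
  replace c3 := mem_fs.1 c3
  have c4 := conj_mem_of_norm (a4 (inv_mem c3)) b1
  rw [hs b b2 _ c4, ← a5.inv k c3 _ c4 b b2, inv_inv, show k * (k⁻¹ * a * k) * k⁻¹ = a by group]
  rcases lt_trichotomy (f k) (f k⁻¹) with c5 | c5 | c5
  · simp [c5, c5.not_gt]
  · exact (c2 (a2 k c3 c5)).elim
  · simp [c5, c5.not_gt]

theorem Kn.real (h : Fm H U β) (hn : ND U β) (hU : Abelem p U) (hH : PiGrp {p}ᶜ H) (hf : H ⊓ C[U] = ⊥) :
    ∃ W ≤ U, H ⊓ C[W] = ⊥ ∧ ∃ η, Kn M H W η := by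
  have hq := PMod.prime M
  have := Fact.mk hq
  have hc := pnat_coprime hU.pg.pi hH
  refine Kn.greedy hU.abelian h.norm hc hf fun N hN e => ?_
  have a1 := commg_subl (hN.le.trans h.norm)
  have a2 := normsR h.norm hN.norm
  have a3 := h.mono a1 le_rfl a2
  have a4 := a3.add a3.symm
  have a5 : ND ⁅U, N⁆ β := h.nd hn (coprime_abelian_cent_dprod (hN.le.trans h.norm)
    (hc.coprime_dvd_right (cardSg hN.le)) hU.abelian).sdprod fun a b1 b b2 => h.orth hN.le b1 b2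
  have a6 := abelemS a1 hU
  obtain ⟨W, b1, b2⟩ := Maschke_abelem (U := aker (fun (w : ↥⁅U, N⁆) u => β u w + β w u) fun w u c1 u' c2 =>
    a4.l u c1 u' c2 w w.2) a6 hH (fun _ e => e.1) a2 (le_norm_iff.2 fun k c1 u c2 =>
      ⟨conj_mem_of_norm (a2 c1) c2.1, fun w => by
        have c3 := conj_mem_of_norm' (a2 c1) w.2
        have := (a4.inv k c1 u c2.1 _ c3).trans (c2.2 ⟨_, c3⟩)
        rwa [show k * (k⁻¹ * w * k) * k⁻¹ = w by group] at this⟩)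
  by_cases b3 : W = ⊥
  · have b4 : ∀ a ∈ ⁅U, N⁆, ∀ b ∈ ⁅U, N⁆, β a b + β b a = 0 := fun a c1 b c2 =>
      (((sup_bot_eq _).symm.trans (b3 ▸ b1.sup)).ge c1).2 ⟨b, c2⟩
    refine ⟨_, le_rfl, e, a2, ?_⟩
    rcases eq_or_ne p 2 with rfl | b5
    · obtain ⟨β', c1, c2⟩ := h.half (Nat.odd_iff.2 (Nat.two_dvd_ne_zero.1 ((p'natE hq).1 hH))) hN
        fun a c1 b c2 => (eq_neg_of_add_eq_zero_left (b4 a c1 b c2)).trans (CharTwo.neg_eq _)
      exact Kn.gauss c1 a6.abelian a6.pg.pi hH fun u c3 c4 => a5 u c3 fun w c5 =>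
        neg_eq_zero.1 ((c2 u c3 w c5).symm.trans (c4 w c5))
    · refine Kn.heis a3 a6.abelian a6.pg.pi hH fun u c3 c4 => a5 u c3 fun w c5 => (mul_eq_zero.1
        (show 2 * β u w = 0 by linear_combination c4 w c5 + b4 u c3 w c5)).resolve_left fun e' => b5 ?_
      exact (Nat.prime_dvd_prime_iff_eq hq Nat.prime_two).1 ((ZMod.natCast_eq_zero_iff 2 p).1 e')
  · refine ⟨W, b1.ler, b3, b2, Kn.gauss (a3.mono b1.ler le_rfl b2) (abelemS b1.ler a6).abelian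
      (abelemS b1.ler a6).pg.pi hH fun u c1 c2 => b1.inf.le ⟨⟨b1.ler c1, fun w => ?_⟩, c1⟩⟩
    obtain ⟨r, c3, y, c4, c5⟩ := b1.sdprod.mem w.2
    beta_reduce
    rw [c5, a4.r u (b1.ler c1) r c3.1 y (b1.ler c4), show β u y + β y u = 0 from c2 y c4, add_zero, add_comm]
    exact c3.2 ⟨u, b1.ler c1⟩

end Cfsg.Agent.PF.CH
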