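import Cfsg.Agent.Isa.J3
import Cfsg.Agent.Isa.J5
import Cfsg.Agent.Transfer.Abelian

/-! Winter's theorem on solvable linear groups with a non-normal Sylow subgroup. (helper12) -/

set_option autoImplicit false
set_option maxSynthPendingDepth 3
set_option linter.unusedVariables false
set_option linter.unusedSectionVars false

namespace Cfsg.Agent.PF.CH

open Cfsg.Agent.BG
open scoped _root_.Classical ComplexConjugate commutatorElement

universe u
variable {X : Type u} [Group X] [Finite X]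
variable {A B C D E G H K L M N P Q R S T U V W Z : Subgroup X} {χ ψ φ θ ω η ξ β τ ν : X → ℂ}
  {a b g h s t v x y : X} {p q r e m n : ℕ} {π : Set ℕ}

local notation "Sol" => Group.IsSolvable

/-- `n` has a prime power divisor that is `0` or `±1` modulo `p` -/
def WGood (p n : ℕ) : Prop :=
  ∃ q : ℕ, IsPrimePow q ∧ q ∣ n ∧ ((q : ℤ) ≡ -1 [ZMOD p] ∨ (q : ℤ) ≡ 0 [ZMOD p] ∨ (q : ℤ) ≡ 1 [ZMOD p])

theorem WGood.of_dvd (h : WGood p m) (hd : m ∣ n) : WGood p n :=
  let ⟨q, h1, h2, h3⟩ := h; ⟨q, h1, h2.trans hd, h3⟩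

theorem deg_dvd_of_dot (hN : N ⊴ G) (hχ : χ ∈ Irr G) (hθ : θ ∈ Irr N) (h : dot N χ θ ≠ 0) : deg θ ∣ deg χ :=
  let ⟨_, _, _, e⟩ := dvdn_constt_Res1_irr1 hN hχ hθ h; e ▸ dvd_mul_left _ _

theorem Hall_pcore_of_norm (hP : IsPiHallOf π P G) (h : G ≤ N[P]) : IsPiHallOf π (piCoreOf π G) G :=
  (normal_Hall_pcore hP ⟨hP.le, h⟩).symm ▸ hP

theorem nsy_of_constt [Fact p.Prime] (hχ : IsChar G χ) (hf : ∀ g ∈ G, χ g = χ 1 → g = 1)
    (h : ∀ θ ∈ Irr G, dot G χ θ ≠ 0 → SylowIn p (Op p (G /ᵍ cfker θ)) (G /ᵍ cfker θ)) : SylowIn p (Op p G) G := by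
  obtain ⟨P, hP⟩ := Sylow_exists p G
  refine Hall_pcore_of_norm hP fun g hg => mem_norm_of_cj_le ?_
  have h1 : BG.cj g P ≤ G := cj_le_of_norm (normG G hg) hP.le
  refine le_sup_right.trans (Hall_max hP le_sup_left (sup_le hP.le h1) (pgroup_of_elts fun x hx => ?_)).le
  have h2 := constt_mem {p}ᶜ hx
  have h3 := sup_le hP.le h1 h2
  refine compl_compl ({p} : Set ℕ) ▸ constt1P.1 (hf _ h3 ?_)
  rw [apply_eq_sum_Irr (CF_inv hχ.mem_CF) h3, apply_eq_sum_Irr (CF_inv hχ.mem_CF) (one_mem G)]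
  refine Finset.sum_congr rfl fun θ hθ => mul_eq_mul_left_iff.2 (or_iff_not_imp_right.2 fun e => cfker_apply ?_)
  have h4 := (cfker_normal hθ).norm
  have h5 := mem_quotient (h4 h3) h2
  rw [quotientY (hP.le.trans h4) (h1.trans h4)] at h5
  exact (coset_eq_one (h4 h3)).1 (p_elt_eq_one (mem_p_elt (pcore_pgroup _ _) (sup_le (sub_Hall_pcore (h θ hθ e)
    (quotientS _ hP.le) (quotient_pgroup _ hP.pi)) (sub_Hall_pcore (h θ hθ e) (quotientS _ h1)
    (quotient_pgroup _ (hP.pg.cj g).pi)) h5)) ((p_elt_constt _ x).of_dvd (orderOf_coset_dvd (h4 h3))))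

theorem winter_core [hp : Fact p.Prime] (hs : Sol G) (hχ : χ ∈ Irr G) (hf : cfker χ = ⊥) (h0 : ¬ WGood p (deg χ))
    (ih : ∀ H < G, (∀ θ ∈ Irr H, dot H χ θ ≠ 0 → ¬ WGood p (deg θ)) → SylowIn p (Op p H) H) :
    SylowIn p (Op p G) G := by
  by_contra hn
  obtain ⟨P, hP⟩ := Sylow_exists p G
  have a0 : ¬ p ∣ deg χ := fun e => h0 ⟨p, hp.out.isPrimePow, e, .inr (.inl (by simp [Int.ModEq]))⟩
  have a1 : ∀ M, M ⊴ G → M < G → SylowIn p (Op p M) M := fun M b1 b2 => ih M b2 fun θ b3 b4 e =>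
    h0 (e.of_dvd (deg_dvd_of_dot b1 hχ b3 b4))
  have a2 : ∀ M, M ⊴ G → P ≤ M → G ≤ M := fun M b1 b2 => by_contra fun e => hn (Hall_pcore_of_norm hP (Hall_max hP
    ((sub_Hall_pcore (a1 M b1 (lt_of_le_not_ge b1.le e)) b2 hP.pi).trans (pcoreS_normal _ b1)) (pcore_sub _ _)
    (pcore_pgroup _ _) ▸ (pcore_normal {p} G).norm))
  have a3 := pcore_normal {p} G
  have a4 : Op p G ≤ P := pcore_sub_Hall hP
  obtain ⟨N, b1, b2⟩ := chief_factor_exists' a3 (normal_refl G) (a3.le.lt_of_ne fun e =>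
    hn (Hall_pcore_of_norm hP (normsG (e.ge.trans a4))))
  obtain ⟨_, b3, -⟩ := chief_abelem b2 (quotient_sol _ hs)
  have b4 := b2.normalV
  have b5 : G ≤ N ⊔ P := a2 _ (sub_der1_normal (b3.trans le_sup_left) (sup_le b4.le hP.le)) le_sup_right
  have b6 := a1 N b4 b2.lt
  rw [Op, ← pcore_setI_normal {p} b4, inf_eq_left.2 b1] at b6
  have b7 : N ⊓ P ≤ Op p G := sub_normal_Hall b6 (a3.subl b1 b4.le) inf_le_left (pgroupS inf_le_right hP.pi)
  obtain ⟨L, c1, c2⟩ := chief_factor_exists' a3 b4 (b1.lt_of_ne fun e => hn (Hall_pcore_of_norm hP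
    (b5.trans (sup_le (e ▸ normsG a4) (normG P)))))
  obtain ⟨q, c3, c4⟩ := chief_abelem c2 (quotient_sol _ (solvableS b4.le hs))
  have c5 := c2.normalV
  have c6 : L ⊔ P < G := (sup_le c5.le hP.le).lt_of_ne fun e => c2.lt.not_ge (by
    rw [← inf_eq_left.2 b4.le, ← e, group_modl (.inr (hP.le.trans c5.norm)) c2.lt.le]
    exact sup_le le_rfl (b7.trans c1))
  have c7 : (L.relIndex N : ZMod p) = 1 := by
    have d1 := quotient_norms L (hP.le.trans b4.norm)
    have d2 := Transfer.card_modEq_card_inf_centralizer (hP.pg.quo L) d1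
    rcases (chief_factor_minnormal c2).min (N /ᵍ L ⊓ C[P /ᵍ L]) inf_le_left ((quotientS L b5).trans (by
      rw [quotientY (b4.le.trans c5.norm) (hP.le.trans c5.norm)]
      exact sup_le (sub_abelian_norm (sub_der1_abelian c3) inf_le_left) (normsI d1 (norms_cent (normG _))))) with e | e
    · rw [e, Subgroup.card_bot, card_quotient (b4.le.trans c5.norm)] at d2
      exact ((ZMod.natCast_eq_natCast_iff _ _ _).2 d2).trans Nat.cast_one
    · have d3 := (quotient_cents2 (b4.le.trans c5.norm) (hP.le.trans c5.norm)).1 (e.ge.trans inf_le_right)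
      refine (c6.not_ge (a2 _ ⟨c6.le, b5.trans (sup_le (norm_of_commg_subl ?_) (normsG le_sup_right))⟩
        le_sup_right)).elim
      exact (comm_sup_le (c5.le.trans c5.norm) (hP.le.trans c5.norm) (commg_subl (b4.le.trans c5.norm))
        ((Subgroup.commutator_comm P N).trans_le d3)).trans le_sup_left
  obtain ⟨k, c8⟩ := (p_natP c4.prime).1 c4.idx
  have c9 : L.relIndex N ≠ 1 := fun e => c2.lt.not_ge (Subgroup.relIndex_eq_one.1 e)
  have d1 : Res N χ ∈ Irr N := Res_irr_of_coprime b4 hχ (by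
    refine Nat.Coprime.symm (pnat_coprime (π := {p}) ?_ ((p'natE hp.out).2 a0))
    rw [show G = N ⊔ P from b5.antisymm (sup_le b4.le hP.le), relIndex_sup_norml (hP.le.trans b4.norm)]
    exact hP.pi.of_dvd (Subgroup.relIndex_dvd_card _ _))
  rcases going_down c2 c3 d1 (le_inertia_Res b4 (CF_inv (Irr_CF hχ))) with d2 | ⟨φ, e, d2, d3⟩ | ⟨φ, d2, -, d3⟩
  · rw [Res_Res c2.lt.le] at d2
    have d3 := Irr_of_Res le_sup_left ((Irr_isChar hχ).res c6.le) (by rwa [Res_Res le_sup_left])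
    have d4 := ih _ c6 fun θ e1 e2 => by
      rwa [← Irr_eq_of_dot_ne_zero d3 e1 (by rwa [dot_Res_self_left]), deg_Res]
    have d5 : L ≤ N[P] := le_sup_left.trans (eq_Hall_pcore d4 (pHall_subl le_sup_right c6.le hP) ▸
      (pcore_normal _ _).norm)
    obtain ⟨μ, e1, e2⟩ := (under_conj hp.out hP a3 hχ a0).1
    obtain ⟨j, e3⟩ := exists_pow_deg hp.out (pcore_pgroup _ G) (IrrFix_irr e1)
    have e4 : μ 1 = 1 := by
      rw [Irr_apply_one (IrrFix_irr e1), e3, show j = 0 from by_contra fun e => a0 ((dvd_pow_self p e).trans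
        (e3 ▸ deg_dvd_of_dot a3 hχ (IrrFix_irr e1) e2)), pow_zero, Nat.cast_one]
    have e5 := commg_subr (hP.le.trans a3.norm)
    have e6 : G ≤ C[Op p G] := (a2 _ a3.cent (le_inf hP.le (Subgroup.commutator_eq_bot_iff_le_centralizer.1
      (le_bot_iff.1 (hf ▸ (le_cfker_Irr hχ).2 fun x hx => by
        simpa [Res_of_mem χ (c1 (e5 hx))] using cfker_apply ((cfker_Res_constt_iff (a3.subl c1 c5.le) e5
          (normsR d5 (c5.le.trans a3.norm)) d2 (IrrFix_irr e1) (by rwa [dot_Res_left c1])).2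
          (comm_le_cfker_of_inv (hP.le.trans a3.norm) (IrrFix_irr e1) e4 (IrrFix_inv e1)) hx)))))).trans inf_le_right
    have e7 : L ≤ C[P] := fun y hy => mem_of_constt {p} (cents_symm (hP.le.trans e6) (constt_mem_of_pi b6
      (a3.subl b1 b4.le) (c2.lt.le hy))) (by
        have f1 := Subgroup.zpowers_le.2 (constt_mem {p}ᶜ hy)
        exact coprime_commGG1P (f1.trans d5) (pnat_coprime hP.pi (p_elt_zpowers.2 (p_elt_constt _ y)))
          (Subgroup.commutator_eq_bot_iff_le_centralizer.2 ((le_inf (((Subgroup.commutator_mono le_rfl f1).trans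
            (commg_subr (hP.le.trans c5.norm))).trans c2.lt.le) (commg_subl (f1.trans d5))).trans (b7.trans
            (cents_symm ((f1.trans c5.le).trans e6))))) (Subgroup.mem_zpowers _))
    have e8 := deg_of_abelian (abelian_iff.2 (c5.le.trans ((a2 _ c5.cent (le_inf hP.le (cents_symm e7))).trans
      inf_le_right))) d2
    rw [deg_Res, deg_eq_one_iff hχ, hf] at e8
    exact hn (Hall_pcore_of_norm hP (sub_der1_normal (e8.trans bot_le) hP.le).norm)
  · have d4 := d2.sq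
    refine h0 ⟨e, ?_, ?_, ((modEq_of_sq hp.out (by rw [← Nat.cast_pow, d4, c7])).symm.imp_right .inr)⟩
    · obtain ⟨j, -, d5⟩ := (Nat.dvd_prime_pow c4.prime).1 (c8 ▸ d4 ▸ dvd_pow_self e two_ne_zero)
      exact d5 ▸ c4.prime.isPrimePow.pow fun e' => c9 (by rw [← d4, d5, e', pow_zero, one_pow])
    · rw [← deg_Res N, d3, deg_eq_of (n := e * deg φ) (by simp [Irr_apply_one d2.irr])]
      exact dvd_mul_right _ _
  · refine h0 ⟨L.relIndex N, c8 ▸ c4.prime.isPrimePow.pow fun e' => c9 (by rw [c8, e', pow_zero]), ?_,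
      .inr (.inr ((ZMod.intCast_eq_intCast_iff _ _ _).1 (by simpa using c7)))⟩
    rw [← deg_Res N, d3, (Irr_isChar d2).deg_Ind c2.lt.le]
    exact dvd_mul_right _ _

theorem winter [Fact p.Prime] (n : ℕ) : ∀ {X : Type u} [Group X] [Finite X] {G : Subgroup X} {χ : X → ℂ}, #G = n →
    Sol G → IsChar G χ → (∀ g ∈ G, χ g = χ 1 → g = 1) → (∀ θ ∈ Irr G, dot G χ θ ≠ 0 → ¬ WGood p (deg θ)) →
    SylowIn p (Op p G) G := by
  induction n using Nat.strong_induction_on with | _ n ih => ?_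
  intro X _ _ G χ hn hs hχ hf h
  by_cases e : ∃ θ ∈ Irr G, dot G χ θ ≠ 0 ∧ cfker θ = ⊥
  · obtain ⟨θ, a1, a2, a3⟩ := e
    exact winter_core hs a1 a3 (h θ a1 a2) fun H b1 b2 => ih _ (hn ▸ proper_card b1) rfl (solvableS b1.le hs)
      ((Irr_isChar a1).res b1.le) (fun g hg e => a3.le ((Irr_mem_cfker a1).2 (by simpa [Res_of_mem θ hg] using e)))
      (by simpa using b2)
  refine nsy_of_constt hχ hf fun θ a1 a2 => ?_
  have a3 := cfker_normal a1
  obtain ⟨α, a4, a5⟩ := exists_ifl a3.norm a1 inf_le_right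
  refine ih _ (hn ▸ ltn_quotient (fun e' => e ⟨θ, a1, a2, e'⟩) a3.le) rfl (quotient_sol _ hs) (Irr_isChar a4)
    (fun z hz e' => ?_) fun β b1 b2 => by rw [← Irr_eq_of_dot_ne_zero a4 b1 b2, ← deg_ifl (G := G), a5]; exact h θ a1 a2
  obtain ⟨x, b1, b2, rfl⟩ := mem_quotient_iff.1 hz
  exact coset_id ((Irr_mem_cfker a1).2 (by rw [← a5, ifl_of_mem b1, e', ifl_one]))

theorem cent_Op'_le [Fact p.Prime] (h : IsPSolvable p G) (h0 : Op p G = ⊥) :
    G ⊓ C[Op' p G] ≤ Op' p G := fun x hx => by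
  rw [Op_eq, Subgroup.map_eq_bot_iff_of_injective _ (Subgroup.subtype_injective _)] at h0
  rw [Op'_eq] at hx ⊢
  exact ⟨⟨x, hx.1⟩, Solv.centralizer_pPrimeCore_le_of_isPSolvable h h0 fun y hy =>
    Subtype.ext (hx.2 y ⟨y, hy, rfl⟩), rfl⟩

theorem nsy_of_sol [Fact p.Prime] (h : IsPSolvable p X) (hG : ∀ H : Subgroup X, Sol H → SylowIn p (Op p H) H) :
    SylowIn p (Op p ⊤) (⊤ : Subgroup X) := by
  obtain ⟨P, hP⟩ := Sylow_exists p (⊤ : Subgroup X)
  have a1 := pcore_normal {p} (⊤ : Subgroup X)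
  have a2 := pcore_normal {p}ᶜ (⊤ /ᵍ Op p (⊤ : Subgroup X))
  have a3 := quotientS (Op p ⊤) hP.le
  have a4 := quotient_pgroup (Op p ⊤) hP.pi
  have a5 := (pnat_coprime a4 (pcore_pgroup {p}ᶜ (⊤ /ᵍ Op p (⊤ : Subgroup X)))).symm
  have a6 := le_of_coprime_Sylow_le (H := C[P /ᵍ Op p ⊤]) (a3.trans a2.norm) a5 (.inl (pgroup_sol a4.pg))
    fun q hq Q b1 b2 => by
      have := Fact.mk hq
      have b3 : P ≤ coquo _ (Q ⊔ P /ᵍ Op p ⊤) := (sub_quotient_pre (le_top.trans a1.norm)).1 le_sup_right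
      have b4 := hG _ (series_sol (normal_cosetpre (Q ⊔ P /ᵍ Op p ⊤)) (pgroup_sol (Op_pgroup p ⊤)) (by
        rw [cosetpreK]; exact solvableY (.inr b2) (pgroup_sol b1.pg) (pgroup_sol a4.pg)))
      have b5 := quotient_norms (Op p ⊤) (eq_Hall_pcore b4 (pHall_subl b3 le_top hP) ▸ (pcore_normal _ _).norm)
      rw [cosetpreK] at b5
      exact TI_cent (le_sup_left.trans b5) b2 (coprime_TI (a5.coprime_dvd_left (cardSg b1.le)))
  have a7 := (le_inf a3 (cents_symm a6)).trans (cent_Op'_le (psolv_quo h a1.norm) (trivg_pcore_quotient _ _))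
  have a8 := (quotient_sub1 (le_top.trans a1.norm)).1 (le_bot_iff.1 (coprime_TI a5 ▸ le_inf a7 le_rfl))
  exact Hall_pcore_of_norm hP (a8.antisymm (pcore_sub_Hall hP) ▸ a1.norm)

theorem not_nsy [Fact p.Prime] (P : Sylow p X) (hP : ¬ (P : Subgroup X).Normal) :
    ¬ SylowIn p (Op p ⊤) (⊤ : Subgroup X) := fun h =>
  hP (eq_Hall_pcore h (sylowIn_top P) ▸ (pcore_normal _ _).normal)

end Cfsg.Agent.PF.CH
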