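import Cfsg.Agent.BG.Base6
import Cfsg.Agent.Solv.Fitting
import Cfsg.Agent.CharDeep.MGroup
import Cfsg.Agent.Gen2.Basic
import Cfsg.Agent.Char.Second
import Cfsg.Prelude.Def_Blocks

/-! Huppert-Manz: solvable groups with squarefree character degrees have derived length at most 4. -/

set_option autoImplicit false

namespace Cfsg.Agent.Isa.L1

open Subgroup Cfsg.Agent.Char Cfsg.Agent.CharDeep
open scoped commutatorElement

variable {G : Type*} [Group G] {q : ℕ}

theorem comm_iSup_le {ι : Type*} (A : ι → Subgroup G) (K : Subgroup G) [K.Normal]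
    (h : ∀ i j, ⁅A i, A j⁆ ≤ K) : ⁅⨆ i, A i, ⨆ i, A i⁆ ≤ K := by
  have key : ∀ a b : G, ⁅a, b⁆ ∈ K ↔
      a ∈ (centralizer {(b : G ⧸ K)}).comap (QuotientGroup.mk' K) := fun a b => by
    rw [mem_comap, mem_centralizer_singleton_iff, ← QuotientGroup.eq_one_iff, commutatorElement_def]
    simp only [QuotientGroup.mk_mul, QuotientGroup.mk_inv, QuotientGroup.mk'_apply]
    rw [mul_inv_eq_one, mul_inv_eq_iff_eq_mul]
  have sw : ∀ a b : G, ⁅a, b⁆ ∈ K → ⁅b, a⁆ ∈ K := fun a b h => by
    rw [← commutatorElement_inv]; exact K.inv_mem h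
  have h1 : ∀ j, ∀ b ∈ A j, ∀ a ∈ ⨆ i, A i, ⁅a, b⁆ ∈ K := fun j b hb a ha =>
    (key a b).2 ((iSup_le fun i a ha => (key a b).1 (h i j (commutator_mem_commutator ha hb)) :
      ⨆ i, A i ≤ (centralizer {(b : G ⧸ K)}).comap (QuotientGroup.mk' K)) ha)
  refine commutator_le.2 fun a ha b hb => sw _ _ ((key b a).2 ?_)
  exact (iSup_le fun j b hb => (key b a).1 (sw _ _ (h1 j b hb a ha)) :
      ⨆ i, A i ≤ (centralizer {(a : G ⧸ K)}).comap (QuotientGroup.mk' K)) hb

theorem normal_of_index_dvd [Finite G] [hq : Fact q.Prime] (hG : IsPGroup q G) {H : Subgroup G}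
    (h : H.index ∣ q) : H.Normal := by
  rcases (Nat.dvd_prime hq.out).1 h with h1 | h1
  · exact normal_of_index_eq_one h1
  · refine normal_of_index_eq_minFac_card ?_
    obtain ⟨k, hk⟩ := hG.exists_card_eq
    have hk0 : k ≠ 0 := by
      rintro rfl
      have := H.index_dvd_card
      rw [hk, h1, pow_zero, Nat.dvd_one] at this
      exact hq.out.one_lt.ne' this
    rw [hk, h1, hq.out.pow_minFac hk0]

theorem pCore_comm [Finite G] {p q : Nat.Primes} (h : p ≠ q) : ⁅pCore (p : ℕ) G, pCore (q : ℕ) G⁆ = ⊥ := by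
  have := Fact.mk p.2
  have := Fact.mk q.2
  exact le_bot_iff.1 ((commutator_le_inf _ _).trans (IsPGroup.disjoint_of_ne p q (fun e => h (Subtype.ext e)) _ _
    (Solv.isPGroup_pCore _ G) (Solv.isPGroup_pCore _ G)).le_bot)

/-- A `q`-group acting faithfully on a `q`-torsion-free abelian group with orbits of size at most `q`. -/
theorem card_dvd_of_orbits [hq : Fact q.Prime] {W : Type*} [CommGroup W] (hW : ∀ w : W, w ^ q = 1 → w = 1)
    (P : Subgroup (MulAut W)) [Finite P] (hP : IsPGroup q P)
    (hS : ∀ (w : W) (S : Subgroup P), (∀ g : P, g ∈ S ↔ (g : MulAut W) w = w) → S.index ∣ q) :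
    Nat.card P ∣ q := by
  replace hS : ∀ w : W, (MulAction.stabilizer P w).index ∣ q := fun w => hS w _ fun _ => Iff.rfl
  have hsm : ∀ (g : P) (w : W), g • w = (g : MulAut W) w := fun _ _ => rfl
  by_contra hcon
  have hex : ∀ H : Subgroup P, H.index ∣ q → ∃ a ∈ H, ∃ y : W, a • y ≠ y := fun H hH => by
    by_contra hc
    push Not at hc
    have : H = ⊥ := eq_bot_iff.2 fun a ha => mem_bot.2 (Subtype.ext (MulEquiv.ext fun y => hc a ha y))
    rw [this, index_bot] at hH
    exact hcon hH
  have hidx : ∀ {w : W} {a : P}, a • w ≠ w → (MulAction.stabilizer P w).index = q := fun {w a} h =>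
    ((Nat.dvd_prime hq.out).1 (hS w)).resolve_left fun h1 => h (by
      rw [index_eq_one] at h1
      exact MulAction.mem_stabilizer_iff.1 (h1 ▸ mem_top a))
  have hmax : ∀ {H K : Subgroup P}, H ≤ K → H.index ∣ q → K.index = q → K ≤ H := fun {H K} hle h1 h2 => by
    have h3 := relIndex_mul_index hle
    have h4 : H.index = q := Nat.dvd_antisymm h1 (h2 ▸ index_dvd_of_le hle)
    rw [h2, h4] at h3
    exact relIndex_eq_one.1 (Nat.eq_of_mul_eq_mul_right hq.out.pos (h3.trans (one_mul q).symm))
  obtain ⟨b, -, x, hx⟩ := hex ⊤ (by simp)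
  obtain ⟨a, ha, y, hy⟩ := hex _ (hS x)
  have hnx := normal_of_index_dvd hP (hS x)
  have hny := normal_of_index_dvd hP (hS y)
  have hfix : ∀ {w : W}, (MulAction.stabilizer P w).Normal → ∀ g : P, ∀ s ∈ MulAction.stabilizer P w,
      s • g • w = g • w := fun {w} hn g s hs => by
    have := MulAction.mem_stabilizer_iff.1 (hn.conj_mem' s hs g)
    rw [mul_smul, mul_smul, inv_smul_eq_iff] at this
    exact this
  have hle : MulAction.stabilizer P (x * y) ≤ MulAction.stabilizer P x ⊓ MulAction.stabilizer P y := by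
    intro g hg
    have h1 : g • x * g • y = x * y := by rw [← smul_mul']; exact hg
    set u := x⁻¹ * g • x with hu
    have hu2 : u = y * (g • y)⁻¹ := by
      rw [hu, inv_mul_eq_iff_eq_mul, ← mul_assoc, eq_mul_inv_iff_mul_eq, h1]
    have hy' : MulAction.stabilizer P y ≤ MulAction.stabilizer P u := fun s hs => by
      rw [MulAction.mem_stabilizer_iff, hu2, smul_mul', smul_inv', hfix hny g s hs,
        MulAction.mem_stabilizer_iff.1 hs]
    have hau : a ∈ MulAction.stabilizer P u := by
      rw [MulAction.mem_stabilizer_iff, hu, smul_mul', smul_inv', hfix hnx g a ha,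
        MulAction.mem_stabilizer_iff.1 ha]
    have hgu : g • u = u := by
      by_contra h
      exact hy (hmax hy' (hS y) (hidx h) hau)
    have hk : ∀ k : ℕ, g ^ k • x = x * u ^ k := fun k => by
      induction k with
      | zero => simp
      | succ k ih =>
        rw [pow_succ', mul_smul, ih, smul_mul', smul_pow', hgu, pow_succ', ← mul_assoc, hu, mul_inv_cancel_left]
    have hq' : g ^ q • x = x := by
      have := pow_index_mem (MulAction.stabilizer P x) g
      rwa [hidx hx] at this
    rw [hk, mul_eq_left] at hq'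
    have hu1 := hW u hq'
    refine mem_inf.2 ⟨?_, ?_⟩
    · rw [hu, inv_mul_eq_one] at hu1; exact hu1.symm
    · rw [hu2, mul_inv_eq_one] at hu1; exact hu1.symm
  exact hy (mem_inf.1 (hle (hmax (hle.trans inf_le_left) (hS _) (hidx hx) ha))).2

theorem dvd_of_over [Finite G] (h : ∀ χ : IrrCharacter G, Squarefree (charDegree (χ : G → ℂ)))
    (N : Subgroup G) [N.Normal] {θ : N → ℂ} (hθ : IsIrrCharacter N θ) {d : ℕ} (hd : θ 1 = d) :
    Squarefree ((inertia N θ).index * d) := by
  classical
  have := Fintype.ofFinite G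
  obtain ⟨χ, hχ, h1⟩ := exists_irr_over N hθ
  have h2 := apply_one_eq_mul_index N hχ hθ h1
  obtain ⟨e, he⟩ := (hχ.isCharacter.comp N.subtype).exists_nat_classInner hθ.isCharacter
  have he' : classInner (fun n : N => χ n) θ = e := he
  rw [he', hd] at h2
  have h3 : charDegree χ = e * ((inertia N θ).index * d) := by
    unfold charDegree
    rw [h2, mul_assoc, ← Nat.cast_mul, ← Nat.cast_mul, Complex.natCast_re, Nat.floor_natCast]
  have := h ⟨χ, hχ⟩
  rw [h3] at this
  exact this.of_mul_right

theorem dvd_of_squarefree [hq : Fact q.Prime] {n k : ℕ} (h : Squarefree n) (hk : n ∣ q ^ k) : n ∣ q := by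
  obtain ⟨l, -, rfl⟩ := (Nat.dvd_prime_pow hq.out).1 hk
  rcases l with - | - | l
  · simp
  · simp
  · exact absurd (h q ⟨q ^ l, by ring⟩) (by simpa using hq.out.one_lt.ne')

theorem pgroup_metabelian [Finite G] [hq : Fact q.Prime] (hG : IsPGroup q G)
    (h : ∀ θ, IsIrrCharacter G θ → ∀ d : ℕ, θ 1 = d → Squarefree d) :
    ⁅commutator G, commutator G⁆ = ⊥ := by
  have := Fintype.ofFinite G
  have := hG.isNilpotent
  refine eq_bot_iff.2 fun g hg => mem_bot.2 (eq_one_of_forall_irr fun θ hθ => ?_)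
  obtain ⟨H, lam, rfl⟩ := isMonomial_of_isNilpotent hθ
  obtain ⟨k, hk⟩ := hG.exists_card_eq
  have h1 : H.index ∣ q := dvd_of_squarefree (h _ hθ _ (by rw [indFun_one]; simp)) (hk ▸ H.index_dvd_card)
  have := normal_of_index_dvd hG h1
  have hcy : IsCyclic (G ⧸ H) := isCyclic_of_card_dvd_prime (p := q) h1
  have h2 : commutator G ≤ H := commutator_le.2 fun a _ b _ => by
    rw [← QuotientGroup.eq_one_iff, commutatorElement_def]
    simp only [QuotientGroup.mk_mul, QuotientGroup.mk_inv]
    rw [hcy.isMulCommutative.is_comm.comm (a : G ⧸ H)]; simp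
  have h3 : ⁅commutator G, commutator G⁆ ≤ (lam.ker).map H.subtype := commutator_le.2 fun a ha b hb =>
    ⟨⁅(⟨a, h2 ha⟩ : H), ⟨b, h2 hb⟩⁆, by
      rw [SetLike.mem_coe, MonoidHom.mem_ker, map_commutatorElement, commutatorElement_eq_one_iff_mul_comm, mul_comm],
      rfl⟩
  refine indFun_apply_eq_of_normal H _ ⁅commutator G, commutator G⁆ (h3.trans (map_subtype_le _))
    (fun m hm => ?_) hg
  obtain ⟨x, hx, rfl⟩ := h3 hm
  have : lam x = 1 := hx
  simp [show (⟨H.subtype x, _⟩ : H) = x from rfl, this]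

theorem fitting_metabelian [Finite G] (h : ∀ χ : IrrCharacter G, Squarefree (charDegree (χ : G → ℂ))) :
    ⁅⁅fittingSubgroup G, fittingSubgroup G⁆, ⁅fittingSubgroup G, fittingSubgroup G⁆⁆ = ⊥ := by
  let D : Nat.Primes → Subgroup G := fun p => ⁅pCore (p : ℕ) G, pCore (p : ℕ) G⁆
  have hDn : (⨆ p, D p).Normal := ⟨fun a ha g => by
    refine iSup_induction D (C := fun a => g * a * g⁻¹ ∈ ⨆ p, D p) ha (fun p a ha => ?_) (by simp) fun a b ha hb => ?_
    · exact mem_iSup_of_mem p (Normal.conj_mem inferInstance a ha g)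
    · have := mul_mem ha hb
      rwa [show g * a * g⁻¹ * (g * b * g⁻¹) = g * (a * b) * g⁻¹ by group] at this⟩
  have h1 : ⁅fittingSubgroup G, fittingSubgroup G⁆ ≤ ⨆ p, D p := by
    rw [Solv.fitting_eq_iSup_pCore]
    refine comm_iSup_le _ _ fun i j => ?_
    by_cases hij : i = j
    · subst hij; exact le_iSup D i
    · rw [pCore_comm hij]; exact bot_le
  refine le_bot_iff.1 ((commutator_mono h1 h1).trans (comm_iSup_le _ _ fun i j => ?_))
  by_cases hij : i = j
  · subst hij
    have := Fact.mk i.2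
    have h2 := pgroup_metabelian (Solv.isPGroup_pCore (i : ℕ) G) fun θ hθ d hd =>
      (dvd_of_over h _ hθ hd).of_mul_right
    have h3 : D i = (commutator (pCore (i : ℕ) G)).map (pCore (i : ℕ) G).subtype := by
      rw [_root_.commutator, map_commutator, ← MonoidHom.range_eq_map, range_subtype]
    rw [h3, ← map_commutator, h2, Subgroup.map_bot]
  · exact (commutator_mono (commutator_le_left _ _) (commutator_le_left _ _)).trans (pCore_comm hij).le

theorem relIndex_dvd_index [Finite G] (I N : Subgroup G) [N.Normal] : I.relIndex N ∣ I.index := by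
  obtain ⟨k, hk⟩ := relIndex_dvd_index_of_normal N I
  have h1 := relIndex_mul_index (inf_le_left : I ⊓ N ≤ I)
  have h2 := relIndex_mul_index (inf_le_right : I ⊓ N ≤ N)
  rw [inf_relIndex_left] at h1
  rw [inf_relIndex_right, ← h1, hk] at h2
  have h0 : 0 < N.relIndex I := Nat.pos_of_ne_zero (index_ne_zero_of_finite (H := N.subgroupOf I))
  refine ⟨k, Nat.eq_of_mul_eq_mul_left h0 ?_⟩
  rw [← h2]; ring

/-- Conjugation action on the linear characters of a normal subgroup. -/
def act (M : Subgroup G) [M.Normal] : G →* MulAut (M →* ℂˣ) where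
  toFun g :=
    { toFun := fun l => l.comp (MulAut.conjNormal g⁻¹ : MulAut M)
      invFun := fun l => l.comp (MulAut.conjNormal g : MulAut M)
      left_inv := fun l => by ext m; simp
      right_inv := fun l => by ext m; simp
      map_mul' := fun _ _ => rfl }
  map_one' := by ext l m; simp
  map_mul' a b := by ext l m; simp

theorem act_apply (M : Subgroup G) [M.Normal] (g : G) (l : M →* ℂˣ) (m : M) :
    act M g l m = l (MulAut.conjNormal g⁻¹ m) := rfl

theorem mem_commutator_of_forall [Finite G] {x : G} (h : ∀ l : G →* ℂˣ, l x = 1) : x ∈ commutator G := by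
  have h1 : Abelianization.of x = 1 := (CommGroup.forall_apply_eq_apply_iff (Abelianization G) (M := ℂ)).1
    fun φ => by rw [map_one]; exact h (φ.comp Abelianization.of)
  rwa [← MonoidHom.mem_ker, Abelianization.ker_of] at h1

open Cfsg.Agent.BG in
theorem card_pCore_quot [Finite G] [hq : Fact q.Prime]
    (h : ∀ χ : IrrCharacter G, Squarefree (charDegree (χ : G → ℂ))) :
    Nat.card (pCore q (G ⧸ fittingSubgroup G)) ∣ q := by
  set F := fittingSubgroup G with hF
  let π := QuotientGroup.mk' F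
  set N := (pCore q (G ⧸ F)).comap π with hN
  set M := pPrimeCore q G ⊓ F with hM
  have hFM : F = pCore q G ⊔ M := Solv.fitting_eq_pCore_sup
  have hMc : (Nat.card M).Coprime q :=
    Nat.Coprime.coprime_dvd_left (card_dvd_of_le inf_le_left) (Solv.coprime_card_pPrimeCore q G)
  have hMn : Group.IsNilpotent M := Solv.isNilpotent_of_le_fitting inf_le_right
  have hNF : ∀ g ∈ N, ∃ k, g ^ q ^ k ∈ F := fun g hg => by
    obtain ⟨k, hk⟩ := Solv.isPGroup_pCore q (G ⧸ F) ⟨π g, hg⟩
    refine ⟨k, (QuotientGroup.eq_one_iff _).1 ?_⟩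
    rw [QuotientGroup.mk_pow]
    exact congrArg Subtype.val hk
  have hOM : pCore q G ≤ C[M] := by
    rw [← commutator_eq_bot_iff_le_centralizer]
    refine le_bot_iff.1 ((commutator_le_inf _ _).trans ?_)
    obtain ⟨k, hk⟩ := (Solv.isPGroup_pCore q G).exists_card_eq
    exact (disjoint_of_coprime_natCard (hk ▸ (hMc.symm.pow_left k))).le_bot
  have hFk : F ≤ (act M).ker := by
    refine hFM.le.trans (sup_le (fun g hg => ?_) fun g hg => ?_)
    · ext l m
      rw [act_apply]
      congr 2
      ext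
      simp only [MulAut.conjNormal_apply, inv_inv]
      rw [mul_assoc, hOM hg m m.2, inv_mul_cancel_left]
    · ext l m
      rw [act_apply, show MulAut.conjNormal g⁻¹ m = (⟨g, hg⟩ : M)⁻¹ * m * ⟨g, hg⟩ from Subtype.ext (by simp),
        map_mul, map_mul, map_inv]
      simp
  -- the centralizer of `M` in `N` is nilpotent
  have hD : N ⊓ C[M] ≤ F := by
    have hp : IsPGroup q (N.map (QuotientGroup.mk' M)) := by
      rintro ⟨-, g, hg, rfl⟩
      obtain ⟨k, hk⟩ := hNF g hg
      rw [hFM, ← SetLike.mem_coe, normal_mul] at hk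
      obtain ⟨a, ha, b, hb, hab⟩ := hk
      obtain ⟨l, hl⟩ := Solv.isPGroup_pCore q G ⟨a, ha⟩
      have hl' : a ^ q ^ l = 1 := congrArg Subtype.val hl
      refine ⟨k + l, Subtype.ext ?_⟩
      show QuotientGroup.mk' M g ^ q ^ (k + l) = 1
      rw [pow_add, pow_mul, ← map_pow, ← hab, map_mul, QuotientGroup.mk'_apply M b,
        (QuotientGroup.eq_one_iff b).2 hb, mul_one, ← map_pow, hl', map_one]
    have := hp.isNilpotent
    let f : (N ⊓ C[M] : Subgroup G) →* N.map (QuotientGroup.mk' M) :=
      ((QuotientGroup.mk' M).comp (Subgroup.subtype _)).codRestrict _ fun x => ⟨x, (mem_inf.1 x.2).1, rfl⟩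
    have : Group.IsNilpotent (N ⊓ C[M] : Subgroup G) := Subgroup.isNilpotent_of_ker_le_center f fun x hx => by
      have hx' : (x : G) ∈ M := (QuotientGroup.eq_one_iff _).1 (congrArg Subtype.val hx)
      exact mem_center_iff.2 fun y => Subtype.ext ((mem_inf.1 y.2).2 x hx').symm
    exact Solv.le_fitting
  have hkF : N ⊓ (act M).ker ≤ F := fun g hg => by
    obtain ⟨hg, hk⟩ := mem_inf.1 hg
    obtain ⟨k, hk1⟩ := hNF g hg
    obtain ⟨a, m, hm, e⟩ := Nat.exists_eq_pow_mul_and_not_dvd (orderOf_pos g).ne' q hq.out.one_lt.ne'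
    have hx : (g ^ m) ^ q ^ a = 1 := by rw [← pow_mul, mul_comm, ← e, pow_orderOf_eq_one]
    have h1 : zpowers (g ^ m) ≤ C[M] := by
      refine coprime_cent_Phi (fun x _ => by rw [normalizer_eq_top]; trivial) ?_ (le_trans ?_ (der1_sub_Phi hMn))
      · rw [Nat.card_zpowers]
        exact Nat.Coprime.coprime_dvd_right (orderOf_dvd_of_pow_eq_one hx) (hMc.pow_right a)
      · refine commutator_le.2 fun y hy x hx => ?_
        have hxk : x⁻¹ ∈ (act M).ker := inv_mem (zpowers_le.2 (pow_mem hk m) hx)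
        have h2 : (⟨y, hy⟩ : M) * (MulAut.conjNormal x (⟨y, hy⟩ : M))⁻¹ ∈ commutator M :=
          mem_commutator_of_forall fun l => by
            have := DFunLike.congr_fun (DFunLike.congr_fun hxk l) ⟨y, hy⟩
            rw [act_apply, inv_inv] at this
            rw [map_mul, map_inv, this]
            simp
        have h3 := mem_map_of_mem M.subtype h2
        rw [_root_.commutator, map_commutator, ← MonoidHom.range_eq_map, range_subtype] at h3
        convert h3 using 1
        simp [commutatorElement_def, mul_assoc]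
    have h2 : g ^ m ∈ F := hD (mem_inf.2 ⟨pow_mem hg m, h1 (mem_zpowers _)⟩)
    have h3 : orderOf (g : G ⧸ F) ∣ m := orderOf_dvd_of_pow_eq_one (by
      rw [← QuotientGroup.mk_pow]; exact (QuotientGroup.eq_one_iff _).2 h2)
    have h4 : orderOf (g : G ⧸ F) ∣ q ^ k := orderOf_dvd_of_pow_eq_one (by
      rw [← QuotientGroup.mk_pow]; exact (QuotientGroup.eq_one_iff _).2 hk1)
    have h5 : m.Coprime (q ^ k) := (hq.out.coprime_iff_not_dvd.2 hm).symm.pow_right k
    exact (QuotientGroup.eq_one_iff _).1 (orderOf_eq_one_iff.1 (Nat.eq_one_of_dvd_coprimes h5 h3 h4))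
  let φ := (act M).comp N.subtype
  have hP : IsPGroup q φ.range := by
    rintro ⟨-, g, rfl⟩
    obtain ⟨k, hk⟩ := hNF g g.2
    refine ⟨k, Subtype.ext ?_⟩
    show φ g ^ q ^ k = 1
    rw [← map_pow]
    exact hFk hk
  have h1 := card_dvd_of_orbits (q := q) (W := M →* ℂˣ) (fun l hl => ?_) φ.range hP fun l S hS => ?_
  · have h2 : φ.ker = F.subgroupOf N := by
      ext g
      exact ⟨fun hg => hkF (mem_inf.2 ⟨g.2, hg⟩), fun hg => hFk hg⟩
    rw [← index_ker, h2] at h1
    have h3 : (F.subgroupOf N).index = Nat.card (pCore q (G ⧸ F)) := by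
      have := relIndex_ker N π
      rw [QuotientGroup.ker_mk', hN, map_comap_eq_self_of_surjective (QuotientGroup.mk'_surjective F)] at this
      exact this
    exact h3 ▸ h1
  · ext m
    have h2 : orderOf (l m) ∣ q := orderOf_dvd_of_pow_eq_one (DFunLike.congr_fun hl m)
    have h3 : orderOf (l m) ∣ Nat.card M := (orderOf_map_dvd l m).trans (orderOf_dvd_natCard m)
    rw [orderOf_eq_one_iff.1 (Nat.eq_one_of_dvd_coprimes hMc h3 h2)]
    rfl
  · obtain ⟨k, hk⟩ := hP.exists_card_eq
    refine dvd_of_squarefree ?_ (hk ▸ index_dvd_card _)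
    have h2 := (dvd_of_over h M (isIrrCharacter_hom l) (d := 1) (by simp)).of_mul_left
    refine h2.squarefree_of_dvd (dvd_trans (dvd_of_eq ?_) (relIndex_dvd_index _ N))
    rw [← index_comap_of_surjective _ φ.rangeRestrict_surjective, relIndex]
    congr 1
    ext g
    rw [mem_comap, hS, mem_subgroupOf, ← inv_mem_iff, mem_inertia']
    constructor
    · intro hg m
      have : act M g l m = l m := DFunLike.congr_fun hg m
      rw [← this]
      rfl
    · intro hg
      ext m
      exact hg m

theorem main [Finite G] [Group.IsSolvable G] (h : ∀ χ : IrrCharacter G, Squarefree (charDegree (χ : G → ℂ))) :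
    derivedSeries G 4 = ⊥ := by
  set F := fittingSubgroup G with hF
  have hcy : ∀ q : Nat.Primes, IsCyclic (pCore (q : ℕ) (G ⧸ F)) := fun q =>
    have := Fact.mk q.2
    isCyclic_of_card_dvd_prime (card_pCore_quot h)
  have h1 : commutator (G ⧸ F) ≤ fittingSubgroup (G ⧸ F) := by
    refine le_trans ?_ Solv.centralizer_fitting_le
    rw [← commutator_eq_bot_iff_le_centralizer, commutator_comm, commutator_eq_bot_iff_le_centralizer,
      Solv.fitting_eq_iSup_pCore]
    refine iSup_le fun q => ?_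
    rw [← commutator_eq_bot_iff_le_centralizer, commutator_comm, commutator_eq_bot_iff_le_centralizer]
    have := hcy q
    let _ : CommGroup (MulAut (pCore (q : ℕ) (G ⧸ F))) := (this.mulAutMulEquiv _).toMonoidHom.commGroupOfInjective
      (this.mulAutMulEquiv _).injective
    refine (Abelianization.commutator_subset_ker (MulAut.conjNormal (H := pCore (q : ℕ) (G ⧸ F)))).trans
      fun g hg r hr => ?_
    have := congrArg Subtype.val (DFunLike.congr_fun hg ⟨r, hr⟩)
    simp only [MulAut.conjNormal_apply, MulAut.one_apply] at this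
    rw [mul_inv_eq_iff_eq_mul] at this
    exact this.symm
  have h2 : ⁅fittingSubgroup (G ⧸ F), fittingSubgroup (G ⧸ F)⁆ ≤ ⊥ := by
    rw [Solv.fitting_eq_iSup_pCore]
    refine comm_iSup_le _ _ fun i j => ?_
    by_cases hij : i = j
    · subst hij
      exact (BG.der1_eq_bot.2 (hcy i).isMulCommutative).le
    · exact (pCore_comm hij).le
  have h3 : derivedSeries G 2 ≤ F := by
    rw [← QuotientGroup.ker_mk' F, ← Subgroup.map_eq_bot_iff, map_derivedSeries_eq (QuotientGroup.mk'_surjective F)]
    exact le_bot_iff.1 ((commutator_mono h1 h1).trans h2)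
  have h4 := commutator_mono h3 h3
  exact le_bot_iff.1 ((commutator_mono h4 h4).trans (fitting_metabelian h).le)

end Cfsg.Agent.Isa.L1
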